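import Mathlib
import Cfsg.Agent.Lib.Helper27.CzStmt
import Cfsg.Agent.Lib.Helper5.SpCard
import Cfsg.Agent.S0270
import Cfsg.Agent.S0246

set_option autoImplicit false

/-! Piece [O2SP] of S2136: the symplectic group of degree 6 over the field of two elements has no
non-trivial normal 2-subgroup. -/

namespace Cfsg.Agent.Lib.Helper30.CzO2SP

open Cfsg Cfsg.Agent.Lib.Helper27.CzStmt

theorem center_eq_bot : Subgroup.center Sp6 = ⊥ := by
  have hcard : Nat.card (Subgroup.center (Matrix.symplecticGroup (Fin 3) (ZMod 2))) = 1 := by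
    rw [Cfsg.Agent.S0246.result (F := ZMod 2) (q := 2) (ZMod.card 2) 3 (by norm_num)]
    rfl
  exact Subgroup.eq_bot_of_card_eq _ hcard

theorem three_dvd_card : 3 ∣ Nat.card Sp6 := by
  have h := Cfsg.Agent.Lib.Helper5.SpCard.card_symplectic (F := ZMod 2) 3
  have h2 : Nat.card Sp6 = 2 ^ 9 * ∏ i ∈ Finset.range 3, (2 ^ (2 * (i + 1)) - 1) := by
    rw [ZMod.card] at h
    exact h
  rw [h2]
  decide

theorem main : O2Sp := by
  intro N hN hN2
  have hsimple : IsSimpleGroup (Cfsg.PSp 3 (ZMod 2)) :=
    Cfsg.Agent.S0270.result 3 (by norm_num) (by intro h; omega)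
  have hcenter := center_eq_bot
  let π := QuotientGroup.mk' (Subgroup.center Sp6)
  have hmapn : (N.map π).Normal :=
    Subgroup.Normal.map hN π (QuotientGroup.mk'_surjective _)
  rcases hmapn.eq_bot_or_eq_top with hbot | htop
  · rw [eq_bot_iff]
    intro g hg
    have h1 : π g ∈ N.map π := Subgroup.mem_map_of_mem π hg
    rw [hbot, Subgroup.mem_bot] at h1
    have hgc : g ∈ Subgroup.center Sp6 := (QuotientGroup.eq_one_iff g).mp h1
    rw [hcenter] at hgc
    exact hgc
  · exfalso
    have htopN : N = ⊤ := by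
      rw [eq_top_iff]
      intro x _
      have h1 : π x ∈ N.map π := by
        rw [htop]
        trivial
      obtain ⟨y, hy, hyx⟩ := Subgroup.mem_map.mp h1
      have h2 : π (y⁻¹ * x) = 1 := by rw [map_mul, map_inv, hyx, inv_mul_cancel]
      have h3 : y⁻¹ * x ∈ Subgroup.center Sp6 := (QuotientGroup.eq_one_iff _).mp h2
      rw [hcenter, Subgroup.mem_bot] at h3
      have h4 : x = y := by
        have : x = y * (y⁻¹ * x) := by group
        rw [this, h3, mul_one]
      rw [h4]
      exact hy
    have hfin : Finite Sp6 := inferInstance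
    obtain ⟨k, hk⟩ := (IsPGroup.iff_card (p := 2) (G := N)).1 hN2
    have hcardN : Nat.card N = Nat.card Sp6 := by
      rw [htopN]
      exact Subgroup.card_top
    have h3 : 3 ∣ 2 ^ k := by
      rw [← hk, hcardN]
      exact three_dvd_card
    have h32 : 3 ∣ 2 := Nat.Prime.dvd_of_dvd_pow Nat.prime_three h3
    omega

end Cfsg.Agent.Lib.Helper30.CzO2SP
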