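import Mathlib
import Cfsg.Agent.Lib.Helper44.MCentStmt
import Cfsg.Agent.Lib.Helper45.OmegaAutKer

set_option autoImplicit false

/-! Piece [RDO] of S2716: every similarity of the minus form is
`Ω · (rational similarity)` modulo the kernel of `Phi` (odd characteristic, odd order). -/

namespace Cfsg.Agent.Lib.Helper30.MCentRDO

open Matrix Module QuadraticMap
open Cfsg.Agent.Lib.Helper45.OmegaAut Cfsg.Agent.Lib.Helper43.H90Fin
open Cfsg.Agent.Lib.Helper44.MFld0 Cfsg.Agent.Lib.Helper44.MaxTS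
  Cfsg.Agent.Lib.Helper44.NegPairs Cfsg.Agent.Lib.Helper44.QSpace
  Cfsg.Agent.Lib.Helper44.QClass Cfsg.Agent.Lib.Helper44.MFldStmt
  Cfsg.Agent.Lib.Helper44.MCentStmt

universe u

theorem main (hOR : OrthRat.{u}) (hMR : MultRat.{u}) (_hS : SepMinus.{u}) :
    RatDecompOdd.{u} := by
  intro F _ _ m hm a b hab h2 σ ha hb hodd g
  obtain ⟨g₁, c, hc, hg₁σ, hgc⟩ := hMR F m hm a b hab h2 σ ha hb hodd g
  -- the scalar similarity `z`
  let zGL : GL (MI m) F := Units.map (Matrix.scalar (MI m)).toMonoidHom (Units.mk0 c hc)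
  have hzval : (zGL : Matrix (MI m) (MI m) F) = c • (1 : Matrix (MI m) (MI m) F) := by
    show Matrix.scalar (MI m) c = c • (1 : Matrix (MI m) (MI m) F)
    rw [Matrix.scalar_apply, Matrix.smul_one_eq_diagonal]
  have hzmul : ∀ x : MI m → F, (zGL : Matrix (MI m) (MI m) F) *ᵥ x = c • x := by
    intro x
    rw [hzval, Matrix.smul_mulVec, Matrix.one_mulVec]
  have hQsmul : ∀ (t : F) (v : MI m → F),
      Cfsg.quadFormMinus m F a b (t • v) = t * t * Cfsg.quadFormMinus m F a b v := by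
    intro t v
    have := QuadraticMap.map_smul (minusQ m F a b) t v
    rw [coe_minusQ] at this
    rw [this, smul_eq_mul]
  have hz : zGL ∈ Cfsg.Geo.quadSimilarityGroup (F := F) (Cfsg.quadFormMinus m F a b) :=
    ⟨Units.mk0 (c * c) (mul_ne_zero hc hc), fun v => by rw [hzmul, hQsmul]; rfl⟩
  let z : GOq (Cfsg.quadFormMinus m F a b) := ⟨zGL, hz⟩
  have hPz : Phi (Cfsg.quadFormMinus m F a b) z = 1 :=
    Cfsg.Agent.Lib.Helper45.OmegaAutKer.Phi_eq_one_of_scalar _ z c hzmul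
  -- the isometry `s = g (z g₁)⁻¹`
  have hs : (g : GL (MI m) F) * (zGL * (g₁ : GL (MI m) F))⁻¹ ∈
      Cfsg.isometryGroup F (Cfsg.quadFormMinus m F a b) := by
    rw [mem_iso_iff']
    intro v
    set w : MI m → F := (((zGL * (g₁ : GL (MI m) F))⁻¹ : GL (MI m) F) : Matrix (MI m) (MI m) F) *ᵥ v
      with hw
    have e1 : ((zGL * (g₁ : GL (MI m) F) : GL (MI m) F) : Matrix (MI m) (MI m) F) *ᵥ w = v := by
      rw [hw, Matrix.mulVec_mulVec, ← Units.val_mul, mul_inv_cancel, Units.val_one,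
        Matrix.one_mulVec]
    rw [Units.val_mul, ← Matrix.mulVec_mulVec, ← hw, hgc w]
    rw [Units.val_mul, ← Matrix.mulVec_mulVec, hzmul] at e1
    rw [← e1, hQsmul, pow_two]
  obtain ⟨ω, t, htσ, hst⟩ := hOR F m hm a b hab h2 σ ha hb hodd ⟨_, hs⟩
  let t' : GOq (Cfsg.quadFormMinus m F a b) := ⟨(t : GL (MI m) F), iso_le_GO _ t.2⟩
  refine ⟨ω, t' * g₁, ?_, ?_⟩
  · show ((((t : GL (MI m) F) * (g₁ : GL (MI m) F) : GL (MI m) F)) :
        Matrix (MI m) (MI m) F).map σ = _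
    rw [Units.val_mul, Matrix.map_mul, htσ, hg₁σ]
    rfl
  · have hg : g = inclΩ _ ω * t' * z * g₁ := by
      apply Subtype.ext
      have h1 := congrArg (fun x : ↥(Cfsg.isometryGroup F (Cfsg.quadFormMinus m F a b)) =>
        (x : GL (MI m) F)) hst
      simp only at h1
      show (g : GL (MI m) F) = ((ω : ↥(Cfsg.isometryGroup F (Cfsg.quadFormMinus m F a b))) :
        GL (MI m) F) * (t : GL (MI m) F) * zGL * (g₁ : GL (MI m) F)
      rw [Subgroup.coe_mul] at h1
      rw [← h1]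
      group
    conv_lhs => rw [hg]
    rw [map_mul, map_mul, map_mul, hPz, mul_one, map_mul, mul_assoc]

end Cfsg.Agent.Lib.Helper30.MCentRDO
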