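import Mathlib
import Cfsg.Agent.Lib.Helper44.MFldStmt

set_option autoImplicit false

/-! Piece [PC] of S2737: isometric forms have isomorphic `PΩ`, compatibly with `Phi`. -/

namespace Cfsg.Agent.Lib.Helper30.MFldPC

open Matrix
open Cfsg.Agent.Lib.Helper45.OmegaAut Cfsg.Agent.Lib.Helper44.MFld0

universe u

section general

variable {G G' : Type*} [Group G] [Group G']

/-- an isomorphism maps the commutator subgroup onto the commutator subgroup -/
theorem map_commutator_eq (e : G ≃* G') :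
    (commutator G).map e.toMonoidHom = commutator G' := by
  rw [commutator_def, commutator_def, Subgroup.map_commutator]
  have : (⊤ : Subgroup G).map e.toMonoidHom = ⊤ :=
    Subgroup.map_top_of_surjective _ e.surjective
  rw [this]

/-- the induced isomorphism of commutator subgroups -/
noncomputable def commEquiv (e : G ≃* G') : ↥(commutator G) ≃* ↥(commutator G') :=
  (e.subgroupMap (commutator G)).trans (MulEquiv.subgroupCongr (map_commutator_eq e))

theorem commEquiv_coe (e : G ≃* G') (x : ↥(commutator G)) :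
    ((commEquiv e x : ↥(commutator G')) : G') = e (x : G) := rfl

theorem map_center_eq (e : G ≃* G') :
    (Subgroup.center G).map e.toMonoidHom = Subgroup.center G' := by
  ext y
  constructor
  · rintro ⟨x, hx, rfl⟩
    rw [Subgroup.mem_center_iff]
    intro g
    obtain ⟨g0, rfl⟩ := e.surjective g
    show e g0 * e x = e x * e g0
    rw [← map_mul, ← map_mul, Subgroup.mem_center_iff.1 hx g0]
  · intro hy
    obtain ⟨x, rfl⟩ := e.surjective y
    refine ⟨x, ?_, rfl⟩
    show x ∈ Subgroup.center G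
    rw [Subgroup.mem_center_iff]
    intro g
    apply e.injective
    rw [map_mul, map_mul]
    exact Subgroup.mem_center_iff.1 hy (e g)

/-- the induced isomorphism of central quotients -/
noncomputable def centQuotEquiv (e : G ≃* G') :
    G ⧸ Subgroup.center G ≃* G' ⧸ Subgroup.center G' :=
  QuotientGroup.congr (Subgroup.center G) (Subgroup.center G') e (map_center_eq e)

theorem centQuotEquiv_mk (e : G ≃* G') (x : G) :
    centQuotEquiv e (QuotientGroup.mk x) = QuotientGroup.mk (e x) := rfl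

theorem centQuotEquiv_symm_mk (e : G ≃* G') (x : G) :
    (centQuotEquiv e).symm (QuotientGroup.mk (e x)) = QuotientGroup.mk x := by
  rw [MulEquiv.symm_apply_eq]
  rfl

end general

variable {F : Type u} [Field F] {ι : Type} [Fintype ι] [DecidableEq ι]

theorem conj_mem {Q Q' : (ι → F) → F} (j : GL ι F)
    (hj : ∀ v : ι → F, Q' ((j : Matrix ι ι F) *ᵥ v) = Q v) {s : GL ι F}
    (hs : s ∈ Cfsg.isometryGroup F Q) : j * s * j⁻¹ ∈ Cfsg.isometryGroup F Q' := by
  rw [mem_iso_iff'] at hs ⊢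
  intro v
  rw [Units.val_mul, Units.val_mul, ← Matrix.mulVec_mulVec, ← Matrix.mulVec_mulVec, hj, hs]
  have h1 := hj (((j⁻¹ : GL ι F) : Matrix ι ι F) *ᵥ v)
  rw [Matrix.mulVec_mulVec, ← Units.val_mul, mul_inv_cancel, Units.val_one, Matrix.one_mulVec]
    at h1
  exact h1.symm

theorem conj_mem' {Q Q' : (ι → F) → F} (j : GL ι F)
    (hj : ∀ v : ι → F, Q' ((j : Matrix ι ι F) *ᵥ v) = Q v) {s : GL ι F}
    (hs : s ∈ Cfsg.isometryGroup F Q') : j⁻¹ * s * j ∈ Cfsg.isometryGroup F Q := by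
  rw [mem_iso_iff'] at hs ⊢
  intro v
  rw [Units.val_mul, Units.val_mul, ← Matrix.mulVec_mulVec, ← Matrix.mulVec_mulVec]
  have h1 := hj (((j⁻¹ : GL ι F) : Matrix ι ι F) *ᵥ
    (((s : GL ι F) : Matrix ι ι F) *ᵥ ((j : Matrix ι ι F) *ᵥ v)))
  rw [Matrix.mulVec_mulVec ((s : Matrix ι ι F) *ᵥ ((j : Matrix ι ι F) *ᵥ v)),
    ← Units.val_mul, mul_inv_cancel, Units.val_one, Matrix.one_mulVec] at h1
  rw [← h1, hs, hj]

/-- conjugation by `j` as an isomorphism of isometry groups -/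
def isoEquiv {Q Q' : (ι → F) → F} (j : GL ι F)
    (hj : ∀ v : ι → F, Q' ((j : Matrix ι ι F) *ᵥ v) = Q v) :
    ↥(Cfsg.isometryGroup F Q) ≃* ↥(Cfsg.isometryGroup F Q') where
  toFun s := ⟨j * (s : GL ι F) * j⁻¹, conj_mem j hj s.2⟩
  invFun s := ⟨j⁻¹ * (s : GL ι F) * j, conj_mem' j hj s.2⟩
  left_inv s := Subtype.ext (by
    show j⁻¹ * (j * (s : GL ι F) * j⁻¹) * j = s
    group)
  right_inv s := Subtype.ext (by
    show j * (j⁻¹ * (s : GL ι F) * j) * j⁻¹ = s
    group)
  map_mul' s t := Subtype.ext (by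
    show j * ((s : GL ι F) * t) * j⁻¹ = (j * s * j⁻¹) * (j * t * j⁻¹)
    group)

theorem isoEquiv_coe {Q Q' : (ι → F) → F} (j : GL ι F)
    (hj : ∀ v : ι → F, Q' ((j : Matrix ι ι F) *ᵥ v) = Q v) (s : ↥(Cfsg.isometryGroup F Q)) :
    ((isoEquiv j hj s : ↥(Cfsg.isometryGroup F Q')) : GL ι F) = j * (s : GL ι F) * j⁻¹ := rfl

theorem main : Cfsg.Agent.Lib.Helper44.MFldStmt.PomegaCongr.{u} := by
  intro F _ ι _ _ Q Q' j hj
  let e := isoEquiv j hj
  let eΩ : ↥(Cfsg.Omega F Q) ≃* ↥(Cfsg.Omega F Q') := commEquiv e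
  refine ⟨centQuotEquiv eΩ, ?_⟩
  intro s s' hss
  apply MulEquiv.ext
  intro x
  induction x using QuotientGroup.induction_on with
  | H ω' =>
    obtain ⟨ω, rfl⟩ := eΩ.surjective ω'
    show centQuotEquiv eΩ (Phi Q s ((centQuotEquiv eΩ).symm (QuotientGroup.mk (eΩ ω))))
      = Phi Q' s' (QuotientGroup.mk (eΩ ω))
    rw [centQuotEquiv_symm_mk, Phi_mk, Phi_mk, centQuotEquiv_mk]
    congr 1
    apply Subtype.ext
    apply Subtype.ext
    rw [cjΩ_coe]
    show j * ((s : GL ι F) * ((ω : ↥(Cfsg.isometryGroup F Q)) : GL ι F) * (s : GL ι F)⁻¹) * j⁻¹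
      = (s' : GL ι F) * (j * ((ω : ↥(Cfsg.isometryGroup F Q)) : GL ι F) * j⁻¹) * (s' : GL ι F)⁻¹
    rw [hss]
    group

end Cfsg.Agent.Lib.Helper30.MFldPC
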