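import Mathlib
import Cfsg.Agent.Lib.Helper55.ClassSize

set_option autoImplicit false

/-! Statements (as `Prop` definitions) of the pieces of S4321: the prime graph on the class
sizes of `p`-singular elements is connected of diameter at most 3 when `p ∤ #Z(G)`.
`cs g` is the class size of `g` (index of the centralizer), from `Helper55.ClassSize`. -/

namespace Cfsg.Agent.Lib.Helper30.PSgStmt

open Subgroup
open Cfsg.Agent.Lib.Helper55.ClassSize

universe u

/-- [KLEM] the `K`-trick for an element `b` of order `p`: if `a`, `b` have coprime class sizes,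
`b` is not central and `a b` has the class size of `a`, then `p` divides the class size of `a`. -/
def KLemDef : Prop :=
  ∀ (G : Type u) [Group G] [Finite G] (p : ℕ) [Fact p.Prime] (a b : G),
    orderOf b = p → b ∉ center G → (cs a).Coprime (cs b) → cs (a * b) = cs a → p ∣ cs a

/-- [DFL] direct factor lemma inside a subgroup `C` containing a Sylow `p`-subgroup `P` of `G`:
if for every `p'`-element `h` of `C` the index of `C ∩ C_G(h)` is prime to `p`, then
`C = P · C_C(P)`. -/
def DFLDef : Prop :=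
  ∀ (G : Type u) [Group G] [Finite G] (p : ℕ) [Fact p.Prime] (C : Subgroup G) (P : Sylow p G),
    (P : Subgroup G) ≤ C →
    (∀ h ∈ C, (orderOf h).Coprime p → ¬ p ∣ (C ⊓ centralizer ({h} : Set G)).index) →
    ∀ g ∈ C, ∃ x ∈ (P : Subgroup G), ∃ c ∈ centralizer ((P : Subgroup G) : Set G), g = x * c

/-- [NORM] if every element of the Sylow `p`-subgroup `P` whose class size is divisible by `p`
has all its conjugates in `P`, and there is such an element, then `P` is normal. -/
def NormDef : Prop :=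
  ∀ (G : Type u) [Group G] [Finite G] (p : ℕ) [Fact p.Prime] (P : Sylow p G) (u : G),
    u ∈ (P : Subgroup G) → p ∣ cs u →
    (∀ z ∈ (P : Subgroup G), p ∣ cs z → ∀ g : G, g * z * g⁻¹ ∈ (P : Subgroup G)) →
    (P : Subgroup G).Normal

/-- [FIN] the final step: `P` a normal Sylow `p`-subgroup, `u ∈ P` with `p ∣ cs u`, `v` of order
`p`; if every `z ∈ P` with `p ∣ cs z` has class size prime to that of `v` and its `G`-class
equal to its `P`-class, then `v` is central. -/
def FinDef : Prop :=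
  ∀ (G : Type u) [Group G] [Finite G] (p : ℕ) [Fact p.Prime] (P : Sylow p G) (u v : G),
    (P : Subgroup G).Normal → u ∈ (P : Subgroup G) → p ∣ cs u → orderOf v = p →
    (∀ z ∈ (P : Subgroup G), p ∣ cs z →
      (cs z).Coprime (cs v) ∧ ∀ g : G, ∃ x ∈ (P : Subgroup G), g * z * g⁻¹ = x * z * x⁻¹) →
    cs v = 1

/-- [ML] the main lemma: two elements of order `p` are linked by a `p`-singular element. -/
def MLDef : Prop :=
  ∀ (G : Type u) [Group G] [Finite G] (p : ℕ) [Fact p.Prime],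
    ¬ p ∣ Nat.card (center G) → ∀ u v : G, orderOf u = p → orderOf v = p →
    ∃ y : G, p ∣ orderOf y ∧ ¬ (cs u).Coprime (cs y) ∧ ¬ (cs v).Coprime (cs y)

/-- [TOP] the statement S4321 from the main lemma (graph casework). -/
def TopDef : Prop :=
  MLDef.{u} → ∀ (G : Type u) [Group G] [Finite G] (p : ℕ) [Fact p.Prime]
    (_hZ : ¬ p ∣ Nat.card ↥(Subgroup.center G)) (r s : ℕ) (_hr : (r.Prime ∧ ∃ x : G, p ∣ orderOf x ∧ r ∣ (Subgroup.centralizer ({x} : Set G)).index)) (_hs : (s.Prime ∧ ∃ x : G, p ∣ orderOf x ∧ s ∣ (Subgroup.centralizer ({x} : Set G)).index)) (_hrs : r ≠ s),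
    (∃ x : G, p ∣ orderOf x ∧ r * s ∣ (Subgroup.centralizer ({x} : Set G)).index) ∨ (∃ t : ℕ, (t.Prime ∧ ∃ x : G, p ∣ orderOf x ∧ t ∣ (Subgroup.centralizer ({x} : Set G)).index) ∧ t ≠ r ∧ t ≠ s ∧ (∃ x : G, p ∣ orderOf x ∧ r * t ∣ (Subgroup.centralizer ({x} : Set G)).index) ∧ (∃ x : G, p ∣ orderOf x ∧ t * s ∣ (Subgroup.centralizer ({x} : Set G)).index)) ∨
      (∃ t u : ℕ, (t.Prime ∧ ∃ x : G, p ∣ orderOf x ∧ t ∣ (Subgroup.centralizer ({x} : Set G)).index) ∧ (u.Prime ∧ ∃ x : G, p ∣ orderOf x ∧ u ∣ (Subgroup.centralizer ({x} : Set G)).index) ∧ t ≠ r ∧ u ≠ s ∧ t ≠ u ∧ (∃ x : G, p ∣ orderOf x ∧ r * t ∣ (Subgroup.centralizer ({x} : Set G)).index) ∧ (∃ x : G, p ∣ orderOf x ∧ t * u ∣ (Subgroup.centralizer ({x} : Set G)).index) ∧ (∃ x : G, p ∣ orderOf x ∧ u * s ∣ (Subgroup.centralizer ({x} : Set G)).index))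

end Cfsg.Agent.Lib.Helper30.PSgStmt
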