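import Mathlib
import Cfsg.Agent.Lib.Helper30.PSgStmt

set_option autoImplicit false

/-! Assembly of the main lemma of S4321 from the pieces `KLEM`, `DFL`, `NORM`, `FIN`. -/

namespace Cfsg.Agent.Lib.Helper30.PSgAsm

open Subgroup
open Cfsg.Agent.Lib.Helper55.ClassSize
open Cfsg.Agent.Lib.Helper30.PSgStmt
open Cfsg.Agent.Lib.Helper69

universe u

variable {G : Type u} [Group G] {p : ℕ}

theorem cs_ne_one_of_order (hZ : ¬ p ∣ Nat.card (center G)) {u : G} (hu : orderOf u = p) :
    cs u ≠ 1 := by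
  intro h
  rw [cs_eq_one_iff] at h
  apply hZ
  have h1 : orderOf (⟨u, h⟩ : center G) = p := by rw [Subgroup.orderOf_mk, hu]
  rw [← h1]
  exact orderOf_dvd_natCard _

theorem not_coprime_of_dvd [hp : Fact p.Prime] {a b : ℕ} (ha : p ∣ a) (hb : p ∣ b) :
    ¬ a.Coprime b :=
  Nat.Prime.not_coprime_iff_dvd.2 ⟨p, hp.out, ha, hb⟩

variable [Finite G] [hp : Fact p.Prime]

/-- the core: `u ∈ P ≤ C(v)`, `p ∤ cs v`, and no linking element -/
theorem core2 (hK : KLemDef.{u}) (hD : DFLDef.{u}) (hN : NormDef.{u}) (hF : FinDef.{u})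
    (hZ : ¬ p ∣ Nat.card (center G)) (u v : G) (hu : orderOf u = p) (hv : orderOf v = p)
    (hA : ∀ y : G, p ∣ orderOf y → (cs u).Coprime (cs y) ∨ (cs v).Coprime (cs y))
    (hpn : ¬ p ∣ cs v) (P : Sylow p G) (huP : u ∈ (P : Subgroup G))
    (hPv : (P : Subgroup G) ≤ centralizer ({v} : Set G)) : False := by
  have hm1 : cs u ≠ 1 := cs_ne_one_of_order hZ hu
  have hn1 : cs v ≠ 1 := cs_ne_one_of_order hZ hv
  have hcop : (cs u).Coprime (cs v) := by
    rcases hA u (by rw [hu]) with h | h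
    · exact absurd ((Nat.coprime_self _).1 h) hm1
    · exact h.symm
  have hcomm : u * v = v * u := mem_cent.1 (hPv huP)
  have hup : u ^ p = 1 := by rw [← hu]; exact pow_orderOf_eq_one u
  have hvp : v ^ p = 1 := by rw [← hv]; exact pow_orderOf_eq_one v
  -- the product `w = u v`
  have hw1 : u * v ≠ 1 := by
    intro h
    have : v = u⁻¹ := (eq_inv_of_mul_eq_one_right h)
    rw [this, cs_inv] at hcop
    exact hm1 ((Nat.coprime_self _).1 hcop)
  have hwp : p ∣ orderOf (u * v) := by
    have h1 : (u * v) ^ p = 1 := by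
      have hc : Commute u v := hcomm
      rw [hc.mul_pow, hup, hvp, one_mul]
    have h2 : orderOf (u * v) ∣ p := orderOf_dvd_of_pow_eq_one h1
    rcases (Nat.dvd_prime hp.out).1 h2 with h3 | h3
    · exact absurd (orderOf_eq_one_iff.1 h3) hw1
    · rw [h3]
  have hwd : cs (u * v) ∣ cs u * cs v := cs_mul_dvd hcop
  have hle1 : cs u ≤ cs (u * v) := cs_le_mul_left hcop
  have hle2 : cs v ≤ cs (u * v) := cs_le_mul_right hcop
  have hunc : u ∉ center G := fun h => hm1 ((cs_eq_one_iff u).2 h)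
  have hvnc : v ∉ center G := fun h => hn1 ((cs_eq_one_iff v).2 h)
  -- `p ∣ cs u`
  have hpm : p ∣ cs u := by
    rcases hA (u * v) hwp with h | h
    · exfalso
      have h1 : cs (u * v) ∣ cs v := by
        exact Nat.Coprime.dvd_of_dvd_mul_left h.symm hwd
      have h2 : cs (u * v) = cs v := le_antisymm (Nat.le_of_dvd (cs_pos v) h1) hle2
      apply hpn
      refine hK G p v u hu hunc hcop.symm ?_
      rw [← hcomm, h2]
    · have h1 : cs (u * v) ∣ cs u := Nat.Coprime.dvd_of_dvd_mul_right h.symm hwd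
      have h2 : cs (u * v) = cs u := le_antisymm (Nat.le_of_dvd (cs_pos u) h1) hle1
      exact hK G p u v hv hvnc hcop h2
  -- the direct factor lemma in `C(v)`
  have hDF : ∀ g ∈ centralizer ({v} : Set G), ∃ x ∈ (P : Subgroup G),
      ∃ c ∈ centralizer ((P : Subgroup G) : Set G), g = x * c := by
    refine hD G p (centralizer ({v} : Set G)) P hPv ?_
    intro h hh hcoph hdvd
    have hvh : v * h = h * v := (mem_cent.1 hh).symm
    have hcopo : (orderOf v).Coprime (orderOf h) := by rw [hv]; exact hcoph.symm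
    have hoy : orderOf (v * h) = orderOf v * orderOf h :=
      Commute.orderOf_mul_eq_mul_orderOf_of_coprime hvh hcopo
    have hpy : p ∣ orderOf (v * h) := by rw [hoy, hv]; exact dvd_mul_right _ _
    have hv0 : v ^ p ∈ center G := by rw [hvp]; exact one_mem _
    have hh0 : h ^ orderOf h ∈ center G := by rw [pow_orderOf_eq_one]; exact one_mem _
    have le1 : centralizer ({v * h} : Set G) ≤ centralizer ({v} : Set G) :=
      centralizer_mul_le hvh hv0 hh0 (by rw [← hv]; exact hcopo)
    have le2 : centralizer ({v * h} : Set G) ≤ centralizer ({h} : Set G) := by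
      rw [hvh]
      exact centralizer_mul_le hvh.symm hh0 hv0 (by rw [← hv]; exact hcopo.symm)
    have h1 : cs v ∣ cs (v * h) := index_dvd_of_le le1
    have h2 : (centralizer ({v} : Set G) ⊓ centralizer ({h} : Set G)).index ∣ cs (v * h) :=
      index_dvd_of_le (le_inf le1 le2)
    rcases hA (v * h) hpy with h3 | h3
    · exact not_coprime_of_dvd hpm (hdvd.trans h2) h3
    · exact hn1 (Nat.Coprime.eq_one_of_dvd h3 h1)
  -- classes of elements of `P` with `p ∣ cs`
  have hconj : ∀ z ∈ (P : Subgroup G), p ∣ cs z →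
      (cs z).Coprime (cs v) ∧ ∀ g : G, ∃ x ∈ (P : Subgroup G), g * z * g⁻¹ = x * z * x⁻¹ := by
    intro z hz hpz
    have hz1 : z ≠ 1 := by
      rintro rfl
      rw [cs_one] at hpz
      exact hp.out.one_lt.ne' (Nat.dvd_one.1 hpz)
    have hzo : p ∣ orderOf z := by
      obtain ⟨k, hk⟩ := PNil.pElem_of_mem_isPGroup (P : Subgroup G) P.2 z hz
      rw [hk]
      have hk0 : k ≠ 0 := by
        rintro rfl
        rw [pow_zero] at hk
        exact hz1 (orderOf_eq_one_iff.1 hk)
      exact dvd_pow_self p hk0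
    have hc : (cs v).Coprime (cs z) := by
      rcases hA z hzo with h | h
      · exact absurd h (not_coprime_of_dvd hpm hpz)
      · exact h
    refine ⟨hc.symm, fun g => ?_⟩
    obtain ⟨b, hb, a, ha, e⟩ := PNil.exists_mul_of_coprime_index (centralizer ({z} : Set G))
      (centralizer ({v} : Set G)) hc.symm g
    obtain ⟨x, hx, c, hcc, e2⟩ := hDF b hb
    refine ⟨x, hx, ?_⟩
    have ha' : a * z * a⁻¹ = z := by rw [mem_cent.1 ha]; group
    have hc' : c * z * c⁻¹ = z := by
      have := (mem_centralizer_iff.1 hcc) z hz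
      rw [← this]; group
    calc g * z * g⁻¹ = b * (a * z * a⁻¹) * b⁻¹ := by rw [e]; group
      _ = b * z * b⁻¹ := by rw [ha']
      _ = x * (c * z * c⁻¹) * x⁻¹ := by rw [e2]; group
      _ = x * z * x⁻¹ := by rw [hc']
  have hNorm : (P : Subgroup G).Normal := by
    refine hN G p P u huP hpm ?_
    intro z hz hpz g
    obtain ⟨x, hx, e⟩ := (hconj z hz hpz).2 g
    rw [e]
    exact (P : Subgroup G).mul_mem ((P : Subgroup G).mul_mem hx hz) ((P : Subgroup G).inv_mem hx)
  exact hn1 (hF G p P u v hNorm huP hpm hv hconj)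

/-- the core without the position hypotheses -/
theorem core1 (hK : KLemDef.{u}) (hD : DFLDef.{u}) (hN : NormDef.{u}) (hF : FinDef.{u})
    (hZ : ¬ p ∣ Nat.card (center G)) (u v : G) (hu : orderOf u = p) (hv : orderOf v = p)
    (hA : ∀ y : G, p ∣ orderOf y → (cs u).Coprime (cs y) ∨ (cs v).Coprime (cs y))
    (hpn : ¬ p ∣ cs v) : False := by
  obtain ⟨S⟩ : Nonempty (Sylow p G) := inferInstance
  obtain ⟨c, hc⟩ := Conj.exists_conj_mem_centralizer_sylow S v hpn
  obtain ⟨g, hg⟩ := PNil.exists_conj_mem_of_not_dvd_index p (S : Subgroup G) S.not_dvd_index u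
    ⟨1, by rw [hu, pow_one]⟩
  have ho1 : orderOf (g⁻¹ * u * g) = p := by
    have := MulEquiv.orderOf_eq (MulAut.conj g⁻¹) u
    rw [MulAut.conj_apply, inv_inv] at this
    rw [this, hu]
  have ho2 : orderOf (c * v * c⁻¹) = p := by
    have := MulEquiv.orderOf_eq (MulAut.conj c) v
    rw [MulAut.conj_apply] at this
    rw [this, hv]
  have hc1 : cs (g⁻¹ * u * g) = cs u := by
    have := cs_conj g⁻¹ u
    rwa [inv_inv] at this
  have hc2 : cs (c * v * c⁻¹) = cs v := cs_conj c v
  refine core2 hK hD hN hF hZ (g⁻¹ * u * g) (c * v * c⁻¹) ho1 ho2 ?_ ?_ S hg ?_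
  · intro y hy
    rw [hc1, hc2]
    exact hA y hy
  · rwa [hc2]
  · intro s hs
    rw [mem_cent]
    exact (mem_centralizer_iff.1 hc) s hs

theorem main (hK : KLemDef.{u}) (hD : DFLDef.{u}) (hN : NormDef.{u}) (hF : FinDef.{u}) :
    MLDef.{u} := by
  intro G _ _ p _ hZ u v hu hv
  by_contra hne
  have hA : ∀ y : G, p ∣ orderOf y → (cs u).Coprime (cs y) ∨ (cs v).Coprime (cs y) := by
    intro y hy
    by_contra hh
    push Not at hh
    exact hne ⟨y, hy, hh.1, hh.2⟩
  by_cases hpn : p ∣ cs v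
  · have hcop : (cs u).Coprime (cs v) := by
      rcases hA u (by rw [hu]) with h | h
      · exact absurd ((Nat.coprime_self _).1 h) (cs_ne_one_of_order hZ hu)
      · exact h.symm
    have hpm : ¬ p ∣ cs u := fun h => not_coprime_of_dvd h hpn hcop
    exact core1 hK hD hN hF hZ v u hv hu (fun y hy => (hA y hy).symm) hpm
  · exact core1 hK hD hN hF hZ u v hu hv hA hpn

end Cfsg.Agent.Lib.Helper30.PSgAsm
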