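import Mathlib
import Cfsg.Agent.Lib.Helper46.PsuStmt

set_option autoImplicit false

/-! Piece [UD] of S5172: an upper triangular element of `GJ` is `t * u` with `t ∈ GJ` diagonal
and `u ∈ UJ`. -/

namespace Cfsg.Agent.Lib.Helper30.PsuUD

open Matrix Cfsg.Agent.Lib.Helper43.SUBase Cfsg.Agent.H84.PslDefs
  Cfsg.Agent.Lib.Helper46.PsuDefs Cfsg.Agent.Lib.Helper46.PsuStmt

universe u

theorem main : UpperDecomp.{u} := by
  intro n K _ _ q D hn g hg hup
  classical
  obtain ⟨M, hM⟩ : ∃ M : Matrix (Fin n) (Fin n) K, M = (g : Matrix (Fin n) (Fin n) K) :=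
    ⟨_, rfl⟩
  have hupM : ∀ i j : Fin n, j < i → M i j = 0 := fun i j h => by rw [hM]; exact hup i j h
  have hdet : M.det = 1 := by rw [hM]; exact g.2
  have hprod : ∏ i, M i i = 1 := by
    rw [← Matrix.det_of_isUpperTriangular (fun i j hji => hupM i j hji)]
    exact hdet
  have hdiag : ∀ i, M i i ≠ 0 := by
    intro i hi
    have h0 : ∏ i, M i i = 0 := Finset.prod_eq_zero (Finset.mem_univ i) hi
    rw [hprod] at h0
    exact one_ne_zero h0
  have hgg : adjJ D n M * M = 1 := by rw [hM]; exact hg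
  have hkey : ∀ i, D.φ (M (Fin.rev i) (Fin.rev i)) * M i i = 1 := by
    intro i
    have h1 := congrFun (congrFun hgg i) i
    rw [Matrix.mul_apply, Matrix.one_apply_eq] at h1
    rw [← h1]
    symm
    apply Finset.sum_eq_single i
    · intro k _ hki
      rcases lt_or_gt_of_ne hki with h | h
      · rw [adjJ_apply, hupM (Fin.rev k) (Fin.rev i) (Fin.rev_lt_rev.mpr h), map_zero, zero_mul]
      · rw [hupM k i h, mul_zero]
    · intro h
      exact absurd (Finset.mem_univ i) h
  let δ : Fin n → K := fun i => M i i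
  let ε : Fin n → K := fun i => (M i i)⁻¹
  let t : SpecialLinearGroup (Fin n) K :=
    ⟨Matrix.diagonal δ, by rw [Matrix.det_diagonal]; exact hprod⟩
  let t' : SpecialLinearGroup (Fin n) K :=
    ⟨Matrix.diagonal ε, by
      rw [Matrix.det_diagonal]
      show ∏ i, (M i i)⁻¹ = 1
      rw [Finset.prod_inv_distrib, hprod, inv_one]⟩
  have htt' : t * t' = 1 := by
    apply Subtype.ext
    show Matrix.diagonal δ * Matrix.diagonal ε = 1
    rw [Matrix.diagonal_mul_diagonal, ← Matrix.diagonal_one]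
    congr 1
    funext i
    exact mul_inv_cancel₀ (hdiag i)
  have hadj : adjJ D n (Matrix.diagonal δ) =
      Matrix.diagonal (fun i => D.φ (δ (Fin.rev i))) := by
    ext i j
    rw [adjJ_apply, Matrix.diagonal_apply, Matrix.diagonal_apply]
    by_cases h : i = j
    · subst h
      rw [if_pos rfl, if_pos rfl]
    · rw [if_neg (fun h' => h (Fin.rev_injective h').symm), if_neg h, map_zero]
  have htG : t ∈ GJ D n := by
    rw [mem_GJ]
    show adjJ D n (Matrix.diagonal δ) * Matrix.diagonal δ = 1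
    rw [hadj, Matrix.diagonal_mul_diagonal, ← Matrix.diagonal_one]
    congr 1
    funext i
    exact hkey i
  have ht' : t' = t⁻¹ := eq_inv_of_mul_eq_one_right htt'
  have ht'G : t' ∈ GJ D n := by rw [ht']; exact inv_mem htG
  have hentry : ∀ i j : Fin n, (t' * g) i j = (M i i)⁻¹ * M i j := by
    intro i j
    show (Matrix.diagonal ε * (g : Matrix (Fin n) (Fin n) K)) i j = _
    rw [Matrix.diagonal_mul, ← hM]
  refine ⟨t, t' * g, htG, ?_, ?_, ?_⟩
  · intro i j hij
    show Matrix.diagonal δ i j = 0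
    exact Matrix.diagonal_apply_ne _ hij
  · rw [mem_UJ]
    refine ⟨mul_mem ht'G hg, ?_, ?_⟩
    · intro i j hji
      rw [hentry, hupM i j hji, mul_zero]
    · intro i
      rw [hentry, inv_mul_cancel₀ (hdiag i)]
  · rw [← mul_assoc, htt', one_mul]

end Cfsg.Agent.Lib.Helper30.PsuUD
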