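import Mathlib
import Cfsg.Agent.Lib.Helper46.PsuROOTS

set_option autoImplicit false

/-! Piece [Z0] of S5172: an element of `GJ` commuting with all of `GJ` is a scalar matrix. -/

namespace Cfsg.Agent.Lib.Helper30.PsuZ0

open Matrix Cfsg.Agent.Lib.Helper43.SUBase Cfsg.Agent.H84.PslDefs
  Cfsg.Agent.Lib.Helper46.PsuDefs Cfsg.Agent.Lib.Helper46.PsuStmt

universe u

variable {K : Type u} [Field K] {q : ℕ} (D : QD K q) {n : ℕ}

/-- the long root element at any position `(i, rev i)`, `i ≠ rev i` (also the lower ones) -/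
theorem long_mem (i : Fin n) (c : K) (hi : i ≠ Fin.rev i) (hc : D.φ c = -c) :
    ∃ g ∈ GJ D n, (g : Matrix (Fin n) (Fin n) K) = 1 + Matrix.single i (Fin.rev i) c := by
  refine ⟨⟨1 + Matrix.single i (Fin.rev i) c, ?_⟩, ?_, rfl⟩
  · have h := Matrix.det_transvection_of_ne i (Fin.rev i) hi c
    rw [Matrix.transvection] at h
    exact h
  · show adjJ D n (1 + Matrix.single i (Fin.rev i) c) * (1 + Matrix.single i (Fin.rev i) c) = 1
    rw [adjJ_add, adjJ_one, adjJ_single, Fin.rev_rev, hc]
    rw [Matrix.add_mul, Matrix.one_mul, Matrix.mul_add, Matrix.mul_one,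
      Matrix.single_mul_single_of_ne _ _ _ _ (Ne.symm hi)]
    rw [add_zero, add_assoc, ← Matrix.single_add,
      add_neg_cancel, Matrix.single_zero, add_zero]

/-- a diagonal matrix commuting with `x` has equal diagonal entries at `i`, `j` if `x i j ≠ 0` -/
theorem diag_eq {Z X : Matrix (Fin n) (Fin n) K} (hZ : ∀ i j : Fin n, i ≠ j → Z i j = 0)
    (hc : X * Z = Z * X) (i j : Fin n) (hx : X i j ≠ 0) : Z i i = Z j j := by
  have h := congrFun (congrFun hc i) j
  rw [Matrix.mul_apply, Matrix.mul_apply] at h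
  rw [Finset.sum_eq_single j (fun k _ hk => by rw [hZ k j hk, mul_zero])
    (fun hj => absurd (Finset.mem_univ j) hj)] at h
  rw [Finset.sum_eq_single i (fun k _ hk => by rw [hZ i k (Ne.symm hk), zero_mul])
    (fun hj => absurd (Finset.mem_univ i) hj)] at h
  have h2 : X i j * (Z j j - Z i i) = 0 := by rw [mul_sub, h]; ring
  rcases mul_eq_zero.1 h2 with h3 | h3
  · exact absurd h3 hx
  · exact (sub_eq_zero.1 h3).symm

theorem main : CenterScalar.{u} := by
  intro n K _ _ q D hn z hz hcomm
  classical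
  obtain ⟨c, hc0, hc⟩ := D.exists_skew
  have hcm : ∀ g ∈ GJ D n, (g : Matrix (Fin n) (Fin n) K) * (z : Matrix (Fin n) (Fin n) K) =
      (z : Matrix (Fin n) (Fin n) K) * (g : Matrix (Fin n) (Fin n) K) := by
    intro g hg
    have h := congrArg
      (fun x : SpecialLinearGroup (Fin n) K => (x : Matrix (Fin n) (Fin n) K)) (hcomm g hg)
    exact h
  obtain ⟨Z, hZ⟩ : ∃ Z : Matrix (Fin n) (Fin n) K, Z = (z : Matrix (Fin n) (Fin n) K) :=
    ⟨_, rfl⟩
  have hcZ : ∀ g ∈ GJ D n, (g : Matrix (Fin n) (Fin n) K) * Z =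
      Z * (g : Matrix (Fin n) (Fin n) K) := by
    intro g hg; rw [hZ]; exact hcm g hg
  -- step 1: commuting with the long root elements
  have h1 : ∀ i : Fin n, i ≠ Fin.rev i →
      (∀ k, k ≠ i → Z k i = 0) ∧ (∀ l, l ≠ Fin.rev i → Z (Fin.rev i) l = 0) ∧
        Z i i = Z (Fin.rev i) (Fin.rev i) := by
    intro i hi
    obtain ⟨g, hg, hgM⟩ := long_mem D i c hi hc
    have h := hcZ g hg
    rw [hgM, Matrix.add_mul, Matrix.mul_add, Matrix.one_mul, Matrix.mul_one] at h
    have h' : Matrix.single i (Fin.rev i) c * Z = Z * Matrix.single i (Fin.rev i) c :=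
      add_left_cancel h
    refine ⟨?_, ?_, ?_⟩
    · intro k hk
      have h2 := congrFun (congrFun h' k) (Fin.rev i)
      rw [Matrix.single_mul_apply_of_ne _ _ _ _ _ hk, Matrix.mul_single_apply_same] at h2
      rcases mul_eq_zero.1 h2.symm with h3 | h3
      · exact h3
      · exact absurd h3 hc0
    · intro l hl
      have h2 := congrFun (congrFun h' i) l
      rw [Matrix.single_mul_apply_same, Matrix.mul_single_apply_of_ne _ _ _ _ _ hl] at h2
      rcases mul_eq_zero.1 h2 with h3 | h3
      · exact absurd h3 hc0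
      · exact h3
    · have h2 := congrFun (congrFun h' i) (Fin.rev i)
      rw [Matrix.single_mul_apply_same, Matrix.mul_single_apply_same] at h2
      have h3 : c * (Z (Fin.rev i) (Fin.rev i) - Z i i) = 0 := by rw [mul_sub, h2]; ring
      rcases mul_eq_zero.1 h3 with h4 | h4
      · exact absurd h4 hc0
      · exact (sub_eq_zero.1 h4).symm
  -- `Z` is diagonal
  have hdiag : ∀ k l : Fin n, k ≠ l → Z k l = 0 := by
    intro k l hkl
    by_cases hl : l = Fin.rev l
    · by_cases hk : k = Fin.rev k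
      · exfalso
        apply hkl
        apply Fin.ext
        have e1 := congrArg Fin.val hl
        have e2 := congrArg Fin.val hk
        rw [Fin.val_rev] at e1 e2
        omega
      · have hk' : Fin.rev k ≠ Fin.rev (Fin.rev k) := by
          rw [Fin.rev_rev]; exact fun h => hk h.symm
        have := (h1 (Fin.rev k) hk').2.1 l (by rw [Fin.rev_rev]; exact hkl.symm)
        rw [Fin.rev_rev] at this
        exact this
    · exact (h1 l hl).1 k hkl
  -- all diagonal entries are equal to the first one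
  have hn0 : 0 < n := by omega
  let i0 : Fin n := ⟨0, hn0⟩
  have hi0 : i0 ≠ Fin.rev i0 := by
    intro h
    have e := congrArg Fin.val h
    rw [Fin.val_rev] at e
    simp only [i0] at e
    omega
  obtain ⟨-, hshort, hmid⟩ := Cfsg.Agent.Lib.Helper46.PsuROOTS.main.{u} n K q D
  have hall : ∀ j : Fin n, Z j j = Z i0 i0 := by
    intro j
    by_cases hj0 : j = i0
    · rw [hj0]
    by_cases hjr : j = Fin.rev i0
    · rw [hjr]; exact ((h1 i0 hi0).2.2).symm
    have hlt : i0 < j := by
      rw [Fin.lt_def]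
      have : j.val ≠ 0 := fun h => hj0 (Fin.ext h)
      simp only [i0]
      omega
    have hlt2 : j < Fin.rev i0 := by
      rw [Fin.lt_def, Fin.val_rev]
      have : j.val ≠ (Fin.rev i0).val := fun h => hjr (Fin.ext h)
      rw [Fin.val_rev] at this
      have := j.isLt
      simp only [i0] at *
      omega
    have hne1 : ¬ (Fin.rev j = i0 ∧ Fin.rev i0 = j) := fun h => hjr h.2.symm
    by_cases hjj : j = Fin.rev j
    · obtain ⟨b, hb⟩ := D.tr (-1) (by rw [map_neg, map_one])
      obtain ⟨g, hg, hgM⟩ := hmid i0 j 1 b hlt hjj (by rw [hb, map_one, mul_one]; ring)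
      have hx : (g : Matrix (Fin n) (Fin n) K) i0 j ≠ 0 := by
        rw [hgM, midM, Matrix.add_apply, Matrix.sub_apply, Matrix.add_apply,
          Matrix.one_apply_ne (ne_of_lt hlt), Matrix.single_apply_same, Matrix.single_apply,
          if_neg (fun h => hj0 h.1), Matrix.single_apply, if_neg (fun h => hjr h.2.symm)]
        simp
      exact (diag_eq hdiag (hcZ g (UJ_le_GJ D n hg)) i0 j hx).symm
    · obtain ⟨g, hg, hgM⟩ := hshort i0 j 1 hlt hlt2 hjj
      have hx : (g : Matrix (Fin n) (Fin n) K) i0 j ≠ 0 := by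
        rw [hgM, shortM, Matrix.sub_apply, Matrix.add_apply,
          Matrix.one_apply_ne (ne_of_lt hlt), Matrix.single_apply_same, Matrix.single_apply,
          if_neg hne1]
        simp
      exact (diag_eq hdiag (hcZ g (UJ_le_GJ D n hg)) i0 j hx).symm
  refine ⟨Z i0 i0, fun i j => ?_⟩
  show (z : Matrix (Fin n) (Fin n) K) i j = _
  rw [← hZ]
  by_cases hij : i = j
  · rw [if_pos hij, hij]; exact hall j
  · rw [if_neg hij]; exact hdiag i j hij

end Cfsg.Agent.Lib.Helper30.PsuZ0
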