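import Mathlib
import Cfsg.Agent.Lib.Helper9.S51IStmt

set_option autoImplicit false

/-!
# S1351 / XNORM (helper30): `N_L(⟨z⟩) = C_L(z)` for a triple of Lemma X.
-/

namespace Cfsg.Agent.Lib.Helper30.S51XNORM

universe u

open Cfsg Cfsg.Agent.Lib.Helper9.S51IStmt

theorem main : XNorm.{u} := by
  intro G _ _ _ L F z q hT g hgL hgz
  obtain ⟨hqp, -, -, hqd, -⟩ := hT.hq
  have hzL : z ∈ L := hT.hF.1 hT.hz
  -- the commutator
  have hw1 : g * z * g⁻¹ * z⁻¹ ∈ ⁅L, L⁆ := Subgroup.commutator_mem_commutator hgL hzL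
  have hw2 : g * z * g⁻¹ * z⁻¹ ∈ Subgroup.zpowers z :=
    (Subgroup.zpowers z).mul_mem hgz ((Subgroup.zpowers z).inv_mem (Subgroup.mem_zpowers z))
  set w : G := g * z * g⁻¹ * z⁻¹ with hw
  have ho1 : orderOf w ∣ q := by
    have h1 : orderOf w ∣ Nat.card (Subgroup.zpowers z) := by
      have := Subgroup.orderOf_dvd_natCard (Subgroup.zpowers z) hw2
      exact this
    rwa [Nat.card_zpowers, hT.hzo] at h1
  have ho2 : orderOf w ∣ Nat.card ↥⁅L, L⁆ := Subgroup.orderOf_dvd_natCard _ hw1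
  have hw1' : w = 1 := by
    rcases (Nat.dvd_prime hqp).1 ho1 with h | h
    · exact orderOf_eq_one_iff.1 h
    · exact absurd (h ▸ ho2) hqd
  have : g * z * g⁻¹ = z := by
    have h2 : g * z * g⁻¹ * z⁻¹ = 1 := hw1'
    exact mul_inv_eq_one.1 h2
  calc g * z = g * z * g⁻¹ * g := by group
    _ = z * g := by rw [this]

end Cfsg.Agent.Lib.Helper30.S51XNORM
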