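import Mathlib
import Cfsg.Agent.Lib.Helper9.S51IStmt

set_option autoImplicit false

/-!
# S1351 / XSPLIT (helper30): `C_L(z) = C_{L_σ}(z) C_F(z)` for a triple of Lemma X.
-/

namespace Cfsg.Agent.Lib.Helper30.S51XSPLIT

universe u

open Cfsg Cfsg.Agent.Lib.Helper9.S51IStmt

/-- `L` normalizes `L_σ`. -/
theorem conj_mem_sigmaCore {G : Type u} [Group G] (L : Subgroup G) {m x : G} (hm : m ∈ L)
    (hx : x ∈ Cfsg.sigmaCore L) : m * x * m⁻¹ ∈ Cfsg.sigmaCore L := by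
  unfold Cfsg.sigmaCore at hx ⊢
  obtain ⟨y, hy, rfl⟩ := Subgroup.mem_map.1 hx
  refine Subgroup.mem_map.2 ⟨(⟨m, hm⟩ : L) * y * (⟨m, hm⟩ : L)⁻¹, ?_, by simp⟩
  exact (Cfsg.piCore_normal (Cfsg.sigma L) L).conj_mem y hy _

theorem main : XSplit.{u} := by
  intro G _ _ _ L F z q hT g hgL hgz
  obtain ⟨hFL, hSL, hdisj, hprod⟩ := hT.hF
  obtain ⟨f, hf, s, hs, rfl⟩ := hprod g hgL
  have hz := hT.hz
  have hzL : z ∈ L := hFL hz
  -- the common element
  have hA : s * z * s⁻¹ * z⁻¹ ∈ Cfsg.sigmaCore L := by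
    have h1 : z * s⁻¹ * z⁻¹ ∈ Cfsg.sigmaCore L :=
      conj_mem_sigmaCore L hzL ((Cfsg.sigmaCore L).inv_mem hs)
    have : s * z * s⁻¹ * z⁻¹ = s * (z * s⁻¹ * z⁻¹) := by group
    rw [this]
    exact (Cfsg.sigmaCore L).mul_mem hs h1
  have hEq : s * z * s⁻¹ = f⁻¹ * z * f := by
    have h1 : f * s * z = z * (f * s) := hgz
    calc s * z * s⁻¹ = f⁻¹ * (f * s * z) * s⁻¹ := by group
      _ = f⁻¹ * (z * (f * s)) * s⁻¹ := by rw [h1]
      _ = f⁻¹ * z * f := by group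
  have hB : s * z * s⁻¹ * z⁻¹ ∈ F := by
    rw [hEq]
    exact F.mul_mem (F.mul_mem (F.mul_mem (F.inv_mem hf) hz) hf) (F.inv_mem hz)
  have h1 : s * z * s⁻¹ * z⁻¹ = 1 := by
    have : s * z * s⁻¹ * z⁻¹ ∈ F ⊓ Cfsg.sigmaCore L := ⟨hB, hA⟩
    rw [hdisj] at this
    exact Subgroup.mem_bot.1 this
  have hsz : s * z = z * s := by
    have h2 : s * z * s⁻¹ = z := mul_inv_eq_one.1 h1
    calc s * z = s * z * s⁻¹ * s := by group
      _ = z * s := by rw [h2]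
  have hfz : f * z = z * f := by
    have h2 : s * z * s⁻¹ = z := mul_inv_eq_one.1 h1
    have h3 : f⁻¹ * z * f = z := by rw [← hEq, h2]
    calc f * z = f * (f⁻¹ * z * f) := by rw [h3]
      _ = z * f := by group
  have hsC : s ∈ Cz L z := by
    refine ⟨hs, ?_⟩
    show s ∈ Subgroup.centralizer ({z} : Set G)
    rw [Subgroup.mem_centralizer_iff]
    intro y hy
    rw [Set.mem_singleton_iff] at hy
    subst hy
    exact hsz.symm
  have hfC : f ∈ Bz F z := by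
    refine ⟨hf, ?_⟩
    show f ∈ Subgroup.centralizer ({z} : Set G)
    rw [Subgroup.mem_centralizer_iff]
    intro y hy
    rw [Set.mem_singleton_iff] at hy
    subst hy
    exact hfz.symm
  -- `f * s ∈ C ⊔ B`
  exact (Cz L z ⊔ Bz F z).mul_mem (Subgroup.mem_sup_right hfC) (Subgroup.mem_sup_left hsC)

end Cfsg.Agent.Lib.Helper30.S51XSPLIT
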