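import Mathlib
import Cfsg.Agent.Lib.Helper22.S56Stmt

/-!
# S1356 / NILPROD (call by helper22)

`H = O D`, `H / O` nilpotent, `D'` centralizes the `q`-group `O`: `H'` is nilpotent.
-/

set_option autoImplicit false

namespace Cfsg.Agent.Lib.Helper30.S56NILPROD

universe u

open Cfsg Cfsg.Agent.Lib.Helper93.S64Stmt Cfsg.Agent.Lib.Helper22.S56Stmt
open scoped commutatorElement

theorem nilp_of_inj {A : Type u} {B : Type u} [Group A] [Group B] (f : A →* B)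
    (hf : Function.Injective f) (hB : Group.IsNilpotent B) : Group.IsNilpotent A := by
  have hB' : Group.IsNilpotent B := hB
  refine Subgroup.isNilpotent_of_ker_le_center f ?_
  rw [(MonoidHom.ker_eq_bot_iff f).mpr hf]
  exact bot_le

theorem main : NilProd.{u} := by
  intro X _ _ H O D _ _ q _ hO hOH hDH hDO hHOD hnil hcent
  classical
  set π := QuotientGroup.mk' O with hπ
  have hDD : ⁅D, D⁆ ≤ D := by
    rw [Subgroup.commutator_le]
    intro a ha b hb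
    rw [commutatorElement_def]
    exact D.mul_mem (D.mul_mem (D.mul_mem ha hb) (D.inv_mem ha)) (D.inv_mem hb)
  -- `⁅D, D⁆` is nilpotent
  have hDDnil : Group.IsNilpotent ↥⁅D, D⁆ := by
    let g : ↥⁅D, D⁆ →* ↥(H.map π) :=
      (π.comp (⁅D, D⁆).subtype).codRestrict (H.map π)
        (fun x => ⟨(x : X), hDH (hDD x.2), rfl⟩)
    refine nilp_of_inj g ?_ hnil
    intro x y hxy
    have h1 : π (x : X) = π (y : X) := congrArg Subtype.val hxy
    have h2 : (x : X)⁻¹ * (y : X) ∈ O := by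
      have : π ((x : X)⁻¹ * (y : X)) = 1 := by
        rw [map_mul, map_inv, h1, inv_mul_cancel]
      exact (QuotientGroup.eq_one_iff _).mp this
    have h3 : (x : X)⁻¹ * (y : X) ∈ D ⊓ O :=
      ⟨D.mul_mem (D.inv_mem (hDD x.2)) (hDD y.2), h2⟩
    rw [hDO, Subgroup.mem_bot] at h3
    exact Subtype.ext (inv_mul_eq_one.mp h3)
  have hOnil : Group.IsNilpotent ↥O := hO.isNilpotent
  have hDDnil' : Group.IsNilpotent ↥⁅D, D⁆ := hDDnil
  -- `O ⊔ ⁅D, D⁆` is nilpotent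
  have hcomm : ∀ (m : ↥O) (n : ↥⁅D, D⁆), Commute (O.subtype m) ((⁅D, D⁆).subtype n) := by
    intro m n
    have := (Subgroup.mem_centralizer_iff.mp (hcent n.2)) (m : X) m.2
    exact this
  let φ : ↥O × ↥⁅D, D⁆ →* X := MonoidHom.noncommCoprod O.subtype (⁅D, D⁆).subtype hcomm
  have hrange : φ.range = O ⊔ ⁅D, D⁆ := by
    rw [MonoidHom.noncommCoprod_range, Subgroup.range_subtype, Subgroup.range_subtype]
  have hLnil : Group.IsNilpotent ↥φ.range :=
    Group.nilpotent_of_surjective φ.rangeRestrict φ.rangeRestrict_surjective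
  -- `⁅H, H⁆ ≤ O ⊔ ⁅D, D⁆`
  have hle : ⁅H, H⁆ ≤ φ.range := by
    rw [hrange, Subgroup.commutator_le]
    intro h₁ hh₁ h₂ hh₂
    obtain ⟨o₁, ho₁, d₁, hd₁, rfl⟩ := Subgroup.mem_sup_of_normal_left.mp (hHOD hh₁)
    obtain ⟨o₂, ho₂, d₂, hd₂, rfl⟩ := Subgroup.mem_sup_of_normal_left.mp (hHOD hh₂)
    have e1 : π (o₁ * d₁) = π d₁ := by
      have : π o₁ = 1 := (QuotientGroup.eq_one_iff o₁).mpr ho₁
      rw [map_mul, this, one_mul]
    have e2 : π (o₂ * d₂) = π d₂ := by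
      have : π o₂ = 1 := (QuotientGroup.eq_one_iff o₂).mpr ho₂
      rw [map_mul, this, one_mul]
    have h1 : π (⁅o₁ * d₁, o₂ * d₂⁆ * ⁅d₁, d₂⁆⁻¹) = 1 := by
      rw [map_mul, map_inv, map_commutatorElement, map_commutatorElement, e1, e2,
        mul_inv_cancel]
    have h2 : ⁅o₁ * d₁, o₂ * d₂⁆ * ⁅d₁, d₂⁆⁻¹ ∈ O := (QuotientGroup.eq_one_iff _).mp h1
    have h3 : ⁅d₁, d₂⁆ ∈ ⁅D, D⁆ := Subgroup.commutator_mem_commutator hd₁ hd₂
    have h4 : ⁅o₁ * d₁, o₂ * d₂⁆ = (⁅o₁ * d₁, o₂ * d₂⁆ * ⁅d₁, d₂⁆⁻¹) * ⁅d₁, d₂⁆ := by group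
    rw [h4]
    exact Subgroup.mul_mem_sup h2 h3
  exact nilp_of_inj (Subgroup.inclusion hle) (Subgroup.inclusion_injective hle) hLnil

end Cfsg.Agent.Lib.Helper30.S56NILPROD
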