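import Mathlib
import Cfsg.Agent.Lib.Helper40.SFStmt
import Cfsg.Agent.Lib.Helper40.KStr

set_option autoImplicit false

/-!
# S5664 / REDUCE (helper30): rank reduction.
-/

namespace Cfsg.Agent.Lib.Helper30.SFREDUCE

open Cfsg.Agent.Lib.Helper40.SFStmt Cfsg.Agent.Lib.Helper94.Basic

universe u

theorem main (h : FieldLem.{u}) : Reduce.{u} := by
  intro F L _ _ _ _ n c hr g hg v u h2 hlt
  set θ := theta g v u with hθ
  set Λ : Submodule F L := LinearMap.range θ with hΛ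
  have hrk : rk g v u = Module.finrank F Λ := rfl
  obtain ⟨x₀, hx₀, hx₀0, x₁, hx₁, x₂, hx₂, hne⟩ := h F L hr Λ (hrk ▸ h2) (hrk ▸ hlt)
  -- the functional
  have hnot : x₁ * x₂ ∉ Λ.map (LinearMap.mulLeft F x₀) := by
    rintro ⟨y, hy, hye⟩
    exact hne y hy hye.symm
  obtain ⟨φ, hφ1, hφ2⟩ := Submodule.exists_le_ker_of_notMem hnot
  obtain ⟨a, ha⟩ := Cfsg.Agent.Lib.Helper40.KStr.exists_rep c.τ c.hτ φ
  have hA1 : ∀ y ∈ Λ, c.τ (x₀ * y * a) = 0 := by
    intro y hy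
    rw [← ha]
    have : x₀ * y ∈ Λ.map (LinearMap.mulLeft F x₀) := ⟨y, hy, rfl⟩
    exact hφ2 this
  have hA2 : c.τ (x₁ * x₂ * a) ≠ 0 := by rw [← ha]; exact hφ1
  -- `t` and `g'`
  have htM : (ltv u a).restrictScalars F ∈ c.M := c.hsub (ltv u a) (ltv_isom u a)
  have hg'M : g⁻¹ * (ltv u a).restrictScalars F * g ∈ c.M :=
    c.M.mul_mem (c.M.mul_mem (c.M.inv_mem hg) htM) hg
  set g' : W n L ≃ₗ[F] W n L := g⁻¹ * (ltv u a).restrictScalars F * g with hg'
  -- the key identity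
  have key : ∀ c₁ c₂ : L, c.τ (c₂ * theta g' v v c₁) = - c.τ (a * θ c₁ * θ c₂) := by
    intro c₁ c₂
    have e1 : c.τ (c₂ * theta g' v v c₁) = ff c.τ (g' (c₁ • v)) (c₂ • v) := by
      rw [ff_lsmul_right, theta_apply]
    have e2 : g (g' (c₁ • v)) = g (c₁ • v) + (a * θ c₁) • u := by
      have : g (g' (c₁ • v)) = (ltv u a) (g (c₁ • v)) := by
        have h1 : g' (c₁ • v) = g⁻¹ ((ltv u a) (g (c₁ • v))) := rfl
        rw [h1]
        show (g * g⁻¹) ((ltv u a) (g (c₁ • v))) = _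
        rw [mul_inv_cancel]
        rfl
      rw [this, ltv_apply]
      rfl
    rw [e1, ← c.isom g hg, e2, ff_add_left, c.isom g hg, ff_lsmul_left, ff_lsmul_left,
      sympForm_smul_right, sympForm_self, mul_zero, mul_zero, map_zero, zero_add,
      sympForm_skew u (g (c₂ • v))]
    have : Cfsg.sympForm n L (g (c₂ • v)) u = θ c₂ := rfl
    rw [this, mul_neg, map_neg]
  -- kernel inclusion
  have hker : LinearMap.ker θ ≤ LinearMap.ker (theta g' v v) := by
    intro c₁ hc₁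
    rw [LinearMap.mem_ker] at hc₁ ⊢
    apply Cfsg.Agent.Lib.Helper40.KStr.tau_inj c.τ c.hτ
    intro a'
    rw [key, hc₁, mul_zero, zero_mul, map_zero, neg_zero, mul_zero, map_zero]
  obtain ⟨c₀, hc₀⟩ := hx₀
  obtain ⟨d₁, hd₁⟩ := hx₁
  obtain ⟨d₂, hd₂⟩ := hx₂
  have hc₀ker : c₀ ∈ LinearMap.ker (theta g' v v) := by
    rw [LinearMap.mem_ker]
    apply Cfsg.Agent.Lib.Helper40.KStr.tau_inj c.τ c.hτ
    intro a'
    rw [key, hc₀, mul_zero, map_zero]
    have h3 := hA1 (θ a') ⟨a', rfl⟩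
    rw [show a * x₀ * θ a' = x₀ * θ a' * a by ring, h3, neg_zero]
  have hc₀not : c₀ ∉ LinearMap.ker θ := by
    rw [LinearMap.mem_ker, hc₀]; exact hx₀0
  have hlt' : LinearMap.ker θ < LinearMap.ker (theta g' v v) :=
    lt_of_le_of_ne hker (fun heq => hc₀not (heq ▸ hc₀ker))
  have hne' : theta g' v v d₁ ≠ 0 := by
    intro h0
    have h3 := key d₁ d₂
    rw [h0, mul_zero, map_zero, hd₁, hd₂] at h3
    apply hA2
    rw [show x₁ * x₂ * a = a * x₁ * x₂ by ring]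
    exact neg_eq_zero.1 h3.symm
  -- rank-nullity
  have r1 := LinearMap.finrank_range_add_finrank_ker θ
  have r2 := LinearMap.finrank_range_add_finrank_ker (theta g' v v)
  have r3 := Submodule.finrank_lt_finrank_of_lt hlt'
  refine ⟨g', hg'M, v, v, ?_, ?_⟩
  · show 1 ≤ Module.finrank F (LinearMap.range (theta g' v v))
    rw [Nat.succ_le_iff, Module.finrank_pos_iff_exists_ne_zero]
    exact ⟨⟨theta g' v v d₁, ⟨d₁, rfl⟩⟩, fun h0 => hne' (congrArg Subtype.val h0)⟩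
  · show Module.finrank F (LinearMap.range (theta g' v v)) < Module.finrank F (LinearMap.range θ)
    omega

end Cfsg.Agent.Lib.Helper30.SFREDUCE
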