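import Mathlib
import Cfsg.Agent.Lib.Helper52.SpStmt

set_option autoImplicit false

/-! Piece [NL] of S5171: an element of `Sp` whose image normalizes `PU` normalizes `U`. -/

namespace Cfsg.Agent.Lib.Helper30.SpNL

open Matrix Cfsg.Agent.Lib.Helper43.SpBasic Cfsg.Agent.Lib.Helper43.SpSylow
open Cfsg.Agent.Lib.Helper43.PSLnUT (IsUT isUT_one)
open Cfsg.Agent.Lib.Helper52.SpStmt

universe u

theorem main : NormLift.{u} := by
  intro m F _ _ p _ _ hm g0 hg0 u hu
  classical
  have hp : p.Prime := Fact.out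
  obtain ⟨n, -, hn2⟩ := FiniteField.card F p
  have h1 : pr (g0 * u * g0⁻¹) ∈ (PU : Subgroup (Cfsg.PSp m F)) := by
    rw [map_mul, map_mul, map_inv]
    exact (Subgroup.mem_normalizer_iff.mp hg0 (pr u)).mp (Subgroup.mem_map_of_mem _ hu)
  obtain ⟨u', hu', hpr⟩ := h1
  obtain ⟨a, ha, hmat⟩ := exists_scalar_of_pr_eq hm hpr.symm
  have hpow : ∀ w ∈ (U : Subgroup (Matrix.symplecticGroup (Fin m) F)),
      w ^ (p ^ ((n : ℕ) * m ^ 2)) = 1 := by
    intro w hw
    have hc : Nat.card (U : Subgroup (Matrix.symplecticGroup (Fin m) F)) =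
        p ^ ((n : ℕ) * m ^ 2) := by
      rw [card_U, hn2, pow_mul]
    have h := pow_card_eq_one' (G := ↥(U : Subgroup (Matrix.symplecticGroup (Fin m) F)))
      (x := ⟨w, hw⟩)
    rw [hc] at h
    have h' := congrArg Subtype.val h
    simpa using h'
  set N := p ^ ((n : ℕ) * m ^ 2) with hN
  have e1 : (g0 * u * g0⁻¹) ^ N = 1 := by
    rw [conj_pow, hpow u hu, mul_one, mul_inv_cancel]
  have e2 : (((g0 * u * g0⁻¹) ^ N : Matrix.symplecticGroup (Fin m) F) :
      Matrix (Fin m ⊕ Fin m) (Fin m ⊕ Fin m) F) = a ^ N • 1 := by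
    rw [SubmonoidClass.coe_pow, hmat, smul_pow, ← SubmonoidClass.coe_pow, hpow u' hu',
      Submonoid.coe_one]
  rw [e1, Submonoid.coe_one] at e2
  have e3 := congrFun (congrFun e2 (Sum.inl ⟨0, hm⟩)) (Sum.inl ⟨0, hm⟩)
  rw [Matrix.smul_apply, Matrix.one_apply_eq, smul_eq_mul, mul_one] at e3
  have ha1 : a = 1 := by
    rcases hp.eq_two_or_odd' with h2' | hodd
    · subst h2'
      have h20 : (2 : F) = 0 := by
        have := CharP.cast_eq_zero F 2
        exact_mod_cast this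
      have : (a - 1) ^ 2 = 0 := by
        linear_combination ha + (1 - a) * h20
      exact sub_eq_zero.1 (pow_eq_zero_iff (two_ne_zero) |>.1 this)
    · have hoddN : Odd N := hodd.pow
      obtain ⟨k, hk⟩ := hoddN
      rw [hk, pow_succ, pow_mul, ha, one_pow, one_mul] at e3
      exact e3.symm
  have : g0 * u * g0⁻¹ = u' := by
    apply Subtype.ext
    rw [hmat, ha1, one_smul]
  rw [this]
  exact hu'

end Cfsg.Agent.Lib.Helper30.SpNL
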