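import Mathlib
import Cfsg.Agent.Lib.Helper52.SpStmt

set_option autoImplicit false

/-! Piece [NT2] of S5171: a block upper triangular symplectic matrix with upper triangular
upper-left block is `d * u` with `d` diagonal and `u ∈ U`. -/

namespace Cfsg.Agent.Lib.Helper30.SpNT2

open Matrix Cfsg.Agent.Lib.Helper43.SpBasic Cfsg.Agent.Lib.Helper43.SpSylow
open Cfsg.Agent.Lib.Helper43.PSLnUT (IsUT isUT_one)
open Cfsg.Agent.Lib.Helper52.SpStmt

universe u

/-- the diagonal symplectic matrix `diag(δ, δ⁻¹)` -/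
theorem diag_mem {m : ℕ} {F : Type u} [Field F] (δ ε : Fin m → F) (h : ∀ i, δ i * ε i = 1) :
    (fromBlocks (Matrix.diagonal δ) 0 0 (Matrix.diagonal ε) :
      Matrix (Fin m ⊕ Fin m) (Fin m ⊕ Fin m) F) ∈ Matrix.symplecticGroup (Fin m) F := by
  rw [SymplecticGroup.fromBlocks_mem_iff]
  refine ⟨by simp, by simp, ?_⟩
  rw [Matrix.transpose_zero, Matrix.zero_mul, sub_zero, Matrix.diagonal_transpose,
    Matrix.diagonal_mul_diagonal]
  rw [← Matrix.diagonal_one]
  congr 1
  funext i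
  exact h i

theorem main : NormTri2.{u} := by
  intro m F _ _ g0 h21 h11
  classical
  set G : Matrix (Fin m ⊕ Fin m) (Fin m ⊕ Fin m) F := g0.1 with hG
  set A := G.toBlocks₁₁ with hA
  set D := G.toBlocks₂₂ with hD
  have hGb : G = fromBlocks A G.toBlocks₁₂ 0 D := by
    conv_lhs => rw [← fromBlocks_toBlocks G, h21]
  have hmem := g0.2
  rw [← hG, hGb, SymplecticGroup.fromBlocks_mem_iff] at hmem
  have hAD : Aᵀ * D = 1 := by
    have h3 := hmem.2.2
    rw [Matrix.transpose_zero, Matrix.zero_mul, sub_zero] at h3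
    exact h3
  have hdetA : A.det ≠ 0 := by
    intro h0
    have := congrArg Matrix.det hAD
    rw [Matrix.det_mul, Matrix.det_transpose, h0, zero_mul, Matrix.det_one] at this
    exact zero_ne_one this
  have hdiag : ∀ i, A i i ≠ 0 := by
    intro i hi
    apply hdetA
    rw [Matrix.det_of_isUpperTriangular (fun k l hlk => h11 k l hlk)]
    exact Finset.prod_eq_zero (Finset.mem_univ i) hi
  let δ : Fin m → F := fun i => A i i
  let ε : Fin m → F := fun i => (A i i)⁻¹
  have hδε : ∀ i, δ i * ε i = 1 := fun i => mul_inv_cancel₀ (hdiag i)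
  have hεδ : ∀ i, ε i * δ i = 1 := fun i => inv_mul_cancel₀ (hdiag i)
  let d : Matrix.symplecticGroup (Fin m) F :=
    ⟨fromBlocks (Matrix.diagonal δ) 0 0 (Matrix.diagonal ε), diag_mem δ ε hδε⟩
  let d' : Matrix.symplecticGroup (Fin m) F :=
    ⟨fromBlocks (Matrix.diagonal ε) 0 0 (Matrix.diagonal δ), diag_mem ε δ hεδ⟩
  have hdd' : d * d' = 1 := by
    apply Subtype.ext
    show (fromBlocks (Matrix.diagonal δ) 0 0 (Matrix.diagonal ε) :
        Matrix (Fin m ⊕ Fin m) (Fin m ⊕ Fin m) F) *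
      fromBlocks (Matrix.diagonal ε) 0 0 (Matrix.diagonal δ) = 1
    rw [Matrix.fromBlocks_multiply]
    simp only [Matrix.mul_zero, Matrix.zero_mul, add_zero, zero_add,
      Matrix.diagonal_mul_diagonal]
    rw [← Matrix.fromBlocks_one]
    congr 1
    · rw [← Matrix.diagonal_one]; congr 1; funext i; exact hδε i
    · rw [← Matrix.diagonal_one]; congr 1; funext i; exact hεδ i
  refine ⟨d, d' * g0, ?_, ?_, ?_⟩
  · intro i j hij
    show (fromBlocks (Matrix.diagonal δ) 0 0 (Matrix.diagonal ε) :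
        Matrix (Fin m ⊕ Fin m) (Fin m ⊕ Fin m) F) i j = 0
    rcases i with i | i <;> rcases j with j | j
    · rw [Matrix.fromBlocks_apply₁₁]
      exact Matrix.diagonal_apply_ne _ (fun h => hij (by rw [h]))
    · rw [Matrix.fromBlocks_apply₁₂]; rfl
    · rw [Matrix.fromBlocks_apply₂₁]; rfl
    · rw [Matrix.fromBlocks_apply₂₂]
      exact Matrix.diagonal_apply_ne _ (fun h => hij (by rw [h]))
  · rw [mem_U]
    have e21 : ((d' * g0 : Matrix.symplecticGroup (Fin m) F) :
        Matrix (Fin m ⊕ Fin m) (Fin m ⊕ Fin m) F).toBlocks₂₁ = 0 := by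
      rw [Submonoid.coe_mul, toBlocks₂₁_mul, ← hG, h21]
      show (fromBlocks (Matrix.diagonal ε) 0 0 (Matrix.diagonal δ) :
        Matrix (Fin m ⊕ Fin m) (Fin m ⊕ Fin m) F).toBlocks₂₁ * _ + _ * 0 = 0
      rw [Matrix.toBlocks_fromBlocks₂₁, Matrix.zero_mul, Matrix.mul_zero, add_zero]
    have e11 : ((d' * g0 : Matrix.symplecticGroup (Fin m) F) :
        Matrix (Fin m ⊕ Fin m) (Fin m ⊕ Fin m) F).toBlocks₁₁ = Matrix.diagonal ε * A := by
      rw [Submonoid.coe_mul, toBlocks₁₁_mul, ← hG, h21]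
      show (fromBlocks (Matrix.diagonal ε) 0 0 (Matrix.diagonal δ) :
        Matrix (Fin m ⊕ Fin m) (Fin m ⊕ Fin m) F).toBlocks₁₁ * _ + _ * 0 = _
      rw [Matrix.toBlocks_fromBlocks₁₁, Matrix.mul_zero, add_zero]
    refine ⟨e21, ?_⟩
    rw [e11]
    constructor
    · intro i j hji
      rw [Matrix.diagonal_mul]
      have := h11 i j hji
      rw [this, mul_zero]
    · intro i
      rw [Matrix.diagonal_mul]
      exact hεδ i
  · rw [← mul_assoc, hdd', one_mul]

end Cfsg.Agent.Lib.Helper30.SpNT2
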