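import Mathlib
import Cfsg.Agent.Lib.Helper20.ZP
import Cfsg.Agent.Lib.Helper30.XSIso

set_option autoImplicit false
set_option linter.unusedSectionVars false
set_option linter.style.haveILetI false

namespace Cfsg.Agent.Lib.Helper30.XPIso

open Cfsg.Agent.Lib.Helper30.XSIso (cent2 mem_cent2)
open Cfsg.Agent.Lib.Helper20.ZP

/-- Elementwise data of an extraspecial `p`-group of exponent `p` with central generator `z`
(the cyclic group of order `p` is included as the degenerate case). -/
structure XP (p : ℕ) (E : Type*) [Group E] (z : E) : Prop where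
  z_ne_one : z ≠ 1
  exp : ∀ g : E, g ^ p = 1
  z_comm : ∀ a : E, z * a = a * z
  central : ∀ c : E, (∀ a : E, a * c = c * a) → c ∈ Subgroup.zpowers z
  comm : ∀ a b : E, a * b * a⁻¹ * b⁻¹ ∈ Subgroup.zpowers z

section basic

variable {p : ℕ} [Fact p.Prime] {E : Type*} [Group E] {z : E}

theorem XP.order (h : XP p E z) : orderOf z = p := orderOf_eq_prime (h.exp z) h.z_ne_one

theorem XP.order_of_ne (h : XP p E z) {x : E} (hx : x ≠ 1) : orderOf x = p :=
  orderOf_eq_prime (h.exp x) hx

theorem XP.zpowers_comm (h : XP p E z) {w : E} (hw : w ∈ Subgroup.zpowers z) (a : E) :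
    w * a = a * w := by
  obtain ⟨k, rfl⟩ := Subgroup.mem_zpowers_iff.mp hw
  exact ((show Commute z a from h.z_comm a).zpow_left k).eq

/-- The commutator map `g ↦ [x, g]` as a homomorphism into the centre. -/
def comHom (h : XP p E z) (x : E) : E →* Subgroup.zpowers z where
  toFun g := ⟨x * g * x⁻¹ * g⁻¹, h.comm x g⟩
  map_one' := Subtype.ext (by simp)
  map_mul' a b := by
    apply Subtype.ext
    show x * (a * b) * x⁻¹ * (a * b)⁻¹ = (x * a * x⁻¹ * a⁻¹) * (x * b * x⁻¹ * b⁻¹)
    have hb := h.zpowers_comm (h.comm x b) a⁻¹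
    calc x * (a * b) * x⁻¹ * (a * b)⁻¹ = x * a * x⁻¹ * ((x * b * x⁻¹ * b⁻¹) * a⁻¹) := by group
      _ = x * a * x⁻¹ * (a⁻¹ * (x * b * x⁻¹ * b⁻¹)) := by rw [hb]
      _ = _ := by group

theorem comHom_coe (h : XP p E z) (x g : E) :
    ((comHom h x g : Subgroup.zpowers z) : E) = x * g * x⁻¹ * g⁻¹ := rfl

theorem comHom_eq_one_iff (h : XP p E z) (x g : E) : comHom h x g = 1 ↔ x * g = g * x := by
  rw [Subtype.ext_iff, comHom_coe, Subgroup.coe_one, mul_inv_eq_one, mul_inv_eq_iff_eq_mul]

theorem comHom_self (h : XP p E z) (x : E) : comHom h x x = 1 :=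
  (comHom_eq_one_iff h x x).mpr rfl

theorem comHom_z (h : XP p E z) (x : E) : comHom h x z = 1 :=
  (comHom_eq_one_iff h x z).mpr (h.z_comm x).symm

theorem comHom_swap (h : XP p E z) (x y : E) : comHom h y x = (comHom h x y)⁻¹ := by
  apply Subtype.ext
  rw [Subgroup.coe_inv, comHom_coe, comHom_coe]
  group

/-- The generator of the centre as an element of `zpowers z`. -/
def zc (z : E) : Subgroup.zpowers z := ⟨z, Subgroup.mem_zpowers z⟩

theorem card_zpowers (h : XP p E z) : Nat.card (Subgroup.zpowers z) = p := by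
  rw [Nat.card_zpowers, h.order]

theorem zc_order (h : XP p E z) : orderOf (zc z) = p := by
  rw [← Subgroup.orderOf_coe]; exact h.order

theorem zc_ne_one (h : XP p E z) : zc z ≠ 1 := fun h1 => h.z_ne_one (congrArg Subtype.val h1)

theorem exists_zpow (u : Subgroup.zpowers z) : ∃ k : ℤ, u = zc z ^ k := by
  obtain ⟨k, hk⟩ := Subgroup.mem_zpowers_iff.mp u.2
  exact ⟨k, Subtype.ext (by rw [Subgroup.coe_zpow]; exact hk.symm)⟩

theorem exists_pair (h : XP p E z) (x a : E) (hxa : x * a ≠ a * x) :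
    ∃ y : E, comHom h x y = zc z := by
  have hw : comHom h x a ≠ 1 := fun h1 => hxa ((comHom_eq_one_iff h x a).mp h1)
  have htop := zpowers_eq_top_of_prime_card (card_zpowers h) hw
  have hmem : zc z ∈ Subgroup.zpowers (comHom h x a) := by rw [htop]; exact Subgroup.mem_top _
  obtain ⟨k, hk⟩ := Subgroup.mem_zpowers_iff.mp hmem
  exact ⟨a ^ k, by rw [map_zpow, hk]⟩

theorem rel_of_pair (h : XP p E z) (x y : E) (hxy : comHom h x y = zc z) :
    x * y = z * (y * x) := by
  have h1 : x * y * x⁻¹ * y⁻¹ = z := congrArg Subtype.val hxy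
  rw [mul_inv_eq_iff_eq_mul, mul_inv_eq_iff_eq_mul] at h1
  rw [h1, mul_assoc]

/-- The pair of commutator maps. -/
def theta (h : XP p E z) (x y : E) : E →* Subgroup.zpowers z × Subgroup.zpowers z :=
  (comHom h x).prod (comHom h y)

theorem theta_apply (h : XP p E z) (x y g : E) :
    theta h x y g = (comHom h x g, comHom h y g) := rfl

theorem theta_ker (h : XP p E z) (x y : E) : (theta h x y).ker = cent2 x y := by
  ext g
  rw [MonoidHom.mem_ker, theta_apply, Prod.mk_eq_one, comHom_eq_one_iff, comHom_eq_one_iff,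
    mem_cent2]

theorem theta_word (h : XP p E z) (x y : E) (hxy : comHom h x y = zc z) (s t : ℤ) :
    theta h x y (y ^ s * x ^ t) = (zc z ^ s, zc z ^ (-t)) := by
  rw [theta_apply]
  refine Prod.ext ?_ ?_
  · show comHom h x (y ^ s * x ^ t) = zc z ^ s
    rw [map_mul, map_zpow, map_zpow, comHom_self, hxy, one_zpow, mul_one]
  · show comHom h y (y ^ s * x ^ t) = zc z ^ (-t)
    rw [map_mul, map_zpow, map_zpow, comHom_self, comHom_swap h x y, hxy, one_zpow, one_mul,
      inv_zpow, zpow_neg]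

theorem theta_surj (h : XP p E z) (x y : E) (hxy : comHom h x y = zc z) :
    Function.Surjective (theta h x y) := by
  rintro ⟨u, v⟩
  obtain ⟨s, rfl⟩ := exists_zpow u
  obtain ⟨t, rfl⟩ := exists_zpow v
  exact ⟨y ^ s * x ^ (-t), by rw [theta_word h x y hxy, neg_neg]⟩

theorem decomp (h : XP p E z) (x y : E) (hxy : comHom h x y = zc z) (g : E) :
    ∃ s t : ℤ, (y ^ s * x ^ t)⁻¹ * g ∈ cent2 x y := by
  obtain ⟨s, hs⟩ := exists_zpow (comHom h x g)
  obtain ⟨t, ht⟩ := exists_zpow (comHom h y g)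
  refine ⟨s, -t, ?_⟩
  rw [← theta_ker h x y, MonoidHom.mem_ker, map_mul, map_inv, theta_word h x y hxy, neg_neg,
    theta_apply, hs, ht]
  simp

theorem card_eq [Finite E] (h : XP p E z) (x y : E) (hxy : comHom h x y = zc z) :
    Nat.card E = p * p * Nat.card (cent2 x y) := by
  have h1 := Subgroup.card_mul_index (theta h x y).ker
  rw [Subgroup.index_ker, MonoidHom.range_eq_top.mpr (theta_surj h x y hxy), Subgroup.card_top,
    Nat.card_prod, card_zpowers h, theta_ker] at h1
  rw [← h1]; ring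

theorem xp_z_mem (h : XP p E z) (x y : E) : z ∈ cent2 x y :=
  mem_cent2.mpr ⟨(h.z_comm x).symm, (h.z_comm y).symm⟩

theorem xp_sub (h : XP p E z) (x y : E) (hxy : comHom h x y = zc z) :
    XP p (cent2 x y) ⟨z, xp_z_mem h x y⟩ := by
  have hsub : ∀ c : cent2 x y, (c : E) ∈ Subgroup.zpowers z →
      c ∈ Subgroup.zpowers (⟨z, xp_z_mem h x y⟩ : cent2 x y) := by
    intro c hc
    obtain ⟨k, hk⟩ := Subgroup.mem_zpowers_iff.mp hc
    exact Subgroup.mem_zpowers_iff.mpr ⟨k, Subtype.ext (by rw [Subgroup.coe_zpow]; exact hk)⟩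
  refine ⟨?_, ?_, ?_, ?_, ?_⟩
  · intro h1; exact h.z_ne_one (congrArg Subtype.val h1)
  · intro g; apply Subtype.ext; rw [Subgroup.coe_pow]; exact h.exp _
  · intro a; exact Subtype.ext (h.z_comm _)
  · intro c hc
    apply hsub
    apply h.central
    intro g
    obtain ⟨s, t, hst⟩ := decomp h x y hxy g
    have hcx : Commute x (c : E) := (mem_cent2.mp c.2).1
    have hcy : Commute y (c : E) := (mem_cent2.mp c.2).2
    have h1 : Commute (y ^ s * x ^ t) (c : E) := (hcy.zpow_left s).mul_left (hcx.zpow_left t)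
    have h2 : (y ^ s * x ^ t)⁻¹ * g * (c : E) = (c : E) * ((y ^ s * x ^ t)⁻¹ * g) :=
      congrArg Subtype.val (hc ⟨_, hst⟩)
    have h3 : g = (y ^ s * x ^ t) * ((y ^ s * x ^ t)⁻¹ * g) := by group
    rw [h3]
    exact (h1.mul_left (show Commute _ _ from h2)).eq
  · intro a b
    apply hsub
    exact h.comm a b

theorem mem_zpowers_of_abelian (h : XP p E z) (hab : ∀ x a : E, x * a = a * x) (g : E) :
    g ∈ Subgroup.zpowers z :=
  h.central g (fun a => hab a g)

theorem card_of_abelian [Finite E] (h : XP p E z) (hab : ∀ x a : E, x * a = a * x) :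
    Nat.card E = p := by
  have htop : Subgroup.zpowers z = ⊤ :=
    eq_top_iff.mpr (fun g _ => mem_zpowers_of_abelian h hab g)
  rw [← card_zpowers h, htop, Subgroup.card_top]

theorem iso_abelian {E' : Type*} [Group E'] [Finite E] [Finite E'] {z' : E'} (h : XP p E z)
    (h' : XP p E' z') (hab : ∀ x a : E, x * a = a * x) (hab' : ∀ x a : E', x * a = a * x)
    (hcard : Nat.card E = Nat.card E') : ∃ φ : E ≃* E', φ z = z' := by
  have hg := mem_zpowers_of_abelian h hab
  have hg' : orderOf z' ∣ orderOf z := by rw [h.order, h'.order]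
  have hφ₀ : (monoidHomOfForallMemZpowers hg hg') z = z' :=
    monoidHomOfForallMemZpowers_apply_gen hg hg'
  have hsurj : Function.Surjective (monoidHomOfForallMemZpowers hg hg') := by
    intro g'
    obtain ⟨k, rfl⟩ := Subgroup.mem_zpowers_iff.mp (mem_zpowers_of_abelian h' hab' g')
    exact ⟨z ^ k, by rw [map_zpow, hφ₀]⟩
  have hbij := hsurj.bijective_of_nat_card_le (le_of_eq hcard)
  exact ⟨MulEquiv.ofBijective _ hbij, hφ₀⟩

end basic

/-! ### The Heisenberg model -/

/-- The Heisenberg group over `ZMod p`. -/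
@[ext] structure HP (p : ℕ) where
  a : ZMod p
  b : ZMod p
  c : ZMod p

namespace HP

variable {p : ℕ}

instance : Mul (HP p) := ⟨fun m m' => ⟨m.a + m'.a, m.b + m'.b, m.c + m'.c + m.a * m'.b⟩⟩
instance : One (HP p) := ⟨⟨0, 0, 0⟩⟩
instance : Inv (HP p) := ⟨fun m => ⟨-m.a, -m.b, -m.c + m.a * m.b⟩⟩

theorem mul_a (m m' : HP p) : (m * m').a = m.a + m'.a := rfl
theorem mul_b (m m' : HP p) : (m * m').b = m.b + m'.b := rfl
theorem mul_c (m m' : HP p) : (m * m').c = m.c + m'.c + m.a * m'.b := rfl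
theorem one_a : (1 : HP p).a = 0 := rfl
theorem one_b : (1 : HP p).b = 0 := rfl
theorem one_c : (1 : HP p).c = 0 := rfl
theorem inv_a (m : HP p) : m⁻¹.a = -m.a := rfl
theorem inv_b (m : HP p) : m⁻¹.b = -m.b := rfl
theorem inv_c (m : HP p) : m⁻¹.c = -m.c + m.a * m.b := rfl

instance : Group (HP p) where
  mul_assoc x y w := by
    apply HP.ext <;> simp only [mul_a, mul_b, mul_c] <;> ring
  one_mul x := by
    apply HP.ext <;> simp only [mul_a, mul_b, mul_c, one_a, one_b, one_c] <;> ring
  mul_one x := by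
    apply HP.ext <;> simp only [mul_a, mul_b, mul_c, one_a, one_b, one_c] <;> ring
  inv_mul_cancel x := by
    apply HP.ext <;> simp only [mul_a, mul_b, mul_c, inv_a, inv_b, inv_c, one_a, one_b, one_c] <;>
      ring

end HP

section model

variable {p : ℕ} [Fact p.Prime] {E : Type*} [Group E] {z : E}

theorem pow_comm_aux (h : XP p E z) (x y : E) (hxy : x * y = z * (y * x)) (i j : ℕ) :
    x ^ i * y ^ j = z ^ (i * j) * (y ^ j * x ^ i) := by
  have hz : ∀ a : E, Commute z a := h.z_comm
  have hz1 : ∀ a b : E, a * (z * b) = z * (a * b) := fun a b => (hz a).symm.left_comm b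
  have hzl : ∀ (k : ℕ) (a b : E), a * (z ^ k * b) = z ^ k * (a * b) :=
    fun k a b => ((hz a).pow_left k).symm.left_comm b
  have h1 : ∀ j : ℕ, x * y ^ j = z ^ j * (y ^ j * x) := by
    intro j
    induction j with
    | zero => simp
    | succ j ih =>
      calc x * y ^ (j + 1) = (x * y ^ j) * y := by simp only [pow_succ, mul_assoc]
        _ = z ^ j * (y ^ j * (x * y)) := by rw [ih]; simp only [mul_assoc]
        _ = z ^ j * (y ^ j * (z * (y * x))) := by rw [hxy]
        _ = z ^ j * (z * (y ^ j * (y * x))) := by rw [hz1 (y ^ j) (y * x)]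
        _ = z ^ (j + 1) * (y ^ (j + 1) * x) := by simp only [pow_succ, mul_assoc]
  induction i with
  | zero => simp
  | succ i ih =>
    have he : (i + 1) * j = j + i * j := by ring
    calc x ^ (i + 1) * y ^ j = x ^ i * (x * y ^ j) := by simp only [pow_succ, mul_assoc]
      _ = x ^ i * (z ^ j * (y ^ j * x)) := by rw [h1]
      _ = z ^ j * ((x ^ i * y ^ j) * x) := by rw [hzl j (x ^ i)]; simp only [mul_assoc]
      _ = z ^ j * ((z ^ (i * j) * (y ^ j * x ^ i)) * x) := by rw [ih]
      _ = z ^ ((i + 1) * j) * (y ^ j * x ^ (i + 1)) := by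
        rw [he, pow_add]; simp only [pow_succ, mul_assoc]

theorem zp_comm_aux (h : XP p E z) (x y : E) (hxy : x * y = z * (y * x)) (a b : ZMod p) :
    zp x p a * zp y p b = zp z p (a * b) * (zp y p b * zp x p a) := by
  haveI : NeZero p := ⟨(Fact.out : p.Prime).ne_zero⟩
  have h1 := pow_comm_aux h x y hxy a.val b.val
  have h2 : zp z p (a * b) = z ^ (a.val * b.val) := by
    rw [← zp_natCast h.order (a.val * b.val)]
    congr 1
    rw [Nat.cast_mul, ZMod.natCast_zmod_val, ZMod.natCast_zmod_val]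
  rw [h2]
  exact h1

/-- The model homomorphism from the Heisenberg group. -/
def mdl (h : XP p E z) (x y : E) (hx : orderOf x = p) (hy : orderOf y = p)
    (hxy : x * y = z * (y * x)) : HP p →* E where
  toFun m := zp z p m.c * (zp y p m.b * zp x p m.a)
  map_one' := by
    haveI : NeZero p := ⟨(Fact.out : p.Prime).ne_zero⟩
    show zp z p 0 * (zp y p 0 * zp x p 0) = 1
    rw [zp_zero, zp_zero, zp_zero]; simp
  map_mul' m m' := by
    haveI : NeZero p := ⟨(Fact.out : p.Prime).ne_zero⟩
    show zp z p (m.c + m'.c + m.a * m'.b) * (zp y p (m.b + m'.b) * zp x p (m.a + m'.a)) =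
      zp z p m.c * (zp y p m.b * zp x p m.a) * (zp z p m'.c * (zp y p m'.b * zp x p m'.a))
    have hzc : ∀ (i : ZMod p) (g : E), Commute (zp z p i) g :=
      fun i g => (show Commute z g from h.z_comm g).pow_left _
    rw [zp_add h.order, zp_add h.order, zp_add hy, zp_add hx]
    rw [(hzc m'.c (zp y p m.b * zp x p m.a)).symm.mul_mul_mul_comm]
    have key : zp y p m.b * zp x p m.a * (zp y p m'.b * zp x p m'.a) =
        zp z p (m.a * m'.b) * (zp y p m.b * zp y p m'.b * (zp x p m.a * zp x p m'.a)) := by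
      calc zp y p m.b * zp x p m.a * (zp y p m'.b * zp x p m'.a)
          = zp y p m.b * ((zp x p m.a * zp y p m'.b) * zp x p m'.a) := by simp only [mul_assoc]
        _ = zp y p m.b * ((zp z p (m.a * m'.b) * (zp y p m'.b * zp x p m.a)) * zp x p m'.a) := by
            rw [zp_comm_aux h x y hxy]
        _ = zp z p (m.a * m'.b) * (zp y p m.b * ((zp y p m'.b * zp x p m.a) * zp x p m'.a)) := by
            rw [mul_assoc (zp z p (m.a * m'.b)), (hzc (m.a * m'.b) (zp y p m.b)).symm.left_comm]
        _ = _ := by simp only [mul_assoc]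
    rw [key]
    simp only [mul_assoc]

theorem mdl_apply (h : XP p E z) (x y : E) (hx : orderOf x = p) (hy : orderOf y = p)
    (hxy : x * y = z * (y * x)) (m : HP p) :
    mdl h x y hx hy hxy m = z ^ m.c.val * (y ^ m.b.val * x ^ m.a.val) := rfl

theorem mdl_comm (h : XP p E z) (x y : E) (hx : orderOf x = p) (hy : orderOf y = p)
    (hxy : x * y = z * (y * x)) (m : HP p) (c : E) (hc : c ∈ cent2 x y) :
    mdl h x y hx hy hxy m * c = c * mdl h x y hx hy hxy m := by
  have hcx : Commute x c := (mem_cent2.mp hc).1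
  have hcy : Commute y c := (mem_cent2.mp hc).2
  have hcz : Commute z c := h.z_comm c
  rw [mdl_apply]
  exact ((hcz.pow_left _).mul_left ((hcy.pow_left _).mul_left (hcx.pow_left _))).eq

theorem mdl_central (h : XP p E z) (x y : E) (hx : orderOf x = p) (hy : orderOf y = p)
    (hxy : x * y = z * (y * x)) (m : HP p) (ha : m.a = 0) (hb : m.b = 0) :
    mdl h x y hx hy hxy m = z ^ m.c.val := by
  rw [mdl_apply, ha, hb]
  simp

theorem mdl_gen (h : XP p E z) (x y : E) (hx : orderOf x = p) (hy : orderOf y = p)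
    (hxy : comHom h x y = zc z) (g : E) :
    ∃ m : HP p, ∃ c ∈ cent2 x y, g = mdl h x y hx hy (rel_of_pair h x y hxy) m * c := by
  haveI : NeZero p := ⟨(Fact.out : p.Prime).ne_zero⟩
  obtain ⟨s, t, hst⟩ := decomp h x y hxy g
  obtain ⟨b, hb⟩ := (mem_zpowers_iff hy (y ^ s)).mp (Subgroup.zpow_mem_zpowers y s)
  obtain ⟨a, ha⟩ := (mem_zpowers_iff hx (x ^ t)).mp (Subgroup.zpow_mem_zpowers x t)
  refine ⟨⟨a, b, 0⟩, _, hst, ?_⟩
  have e : mdl h x y hx hy (rel_of_pair h x y hxy) ⟨a, b, 0⟩ = y ^ s * x ^ t := by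
    rw [hb, ha, mdl_apply]
    simp [zp]
  rw [e]
  group

theorem mdl_mem (h : XP p E z) (x y : E) (hx : orderOf x = p) (hy : orderOf y = p)
    (hxy : comHom h x y = zc z) (m : HP p)
    (hm : mdl h x y hx hy (rel_of_pair h x y hxy) m ∈ cent2 x y) : m.a = 0 ∧ m.b = 0 := by
  haveI : NeZero p := ⟨(Fact.out : p.Prime).ne_zero⟩
  have h1 := (comHom_eq_one_iff h x _).mpr (mem_cent2.mp hm).1
  have h2 := (comHom_eq_one_iff h y _).mpr (mem_cent2.mp hm).2
  rw [mdl_apply] at h1 h2
  simp only [map_mul, map_pow, comHom_self, comHom_z, hxy, one_pow, one_mul, mul_one] at h1 h2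
  rw [comHom_swap h x y, hxy, inv_pow, inv_eq_one] at h2
  exact ⟨(zp_eq_one_iff (zc_order h) m.a).mp h2, (zp_eq_one_iff (zc_order h) m.b).mp h1⟩

end model

/-- Gluing a model subgroup and a centralizing subgroup, keeping track of the isomorphism. -/
theorem glue' {M : Type*} {E : Type*} {E' : Type*} [Group M] [Group E] [Group E'] [Finite E]
    [Finite E'] (hcard : Nat.card E ≤ Nat.card E')
    (f : M →* E) (f' : M →* E') (C : Subgroup E) (C' : Subgroup E') (φ : C ≃* C')
    (hcomm : ∀ m, ∀ c ∈ C, f m * c = c * f m) (hcomm' : ∀ m, ∀ c ∈ C', f' m * c = c * f' m)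
    (hgen : ∀ g : E, ∃ m, ∃ c ∈ C, g = f m * c) (hgen' : ∀ g : E', ∃ m, ∃ c ∈ C', g = f' m * c)
    (hcompat : ∀ m (c : C), f m * (c : E) = 1 → f' m * (φ c : E') = 1) :
    ∃ Φ : E ≃* E', ∀ m (c : C), Φ (f m * (c : E)) = f' m * (φ c : E') := by
  let π : M × C →* E := MonoidHom.noncommCoprod f C.subtype (fun m c => hcomm m c c.2)
  let ψ : M × C →* E' := MonoidHom.noncommCoprod f' (C'.subtype.comp φ.toMonoidHom)
    (fun m c => hcomm' m _ (φ c).2)
  have hπa : ∀ p : M × C, π p = f p.1 * (p.2 : E) := fun p => rfl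
  have hψa : ∀ p : M × C, ψ p = f' p.1 * (φ p.2 : E') := fun p => rfl
  have hπ : Function.Surjective π := by
    intro g
    obtain ⟨m, c, hc, rfl⟩ := hgen g
    exact ⟨(m, ⟨c, hc⟩), hπa _⟩
  have hker : π.ker ≤ ψ.ker := by
    rintro ⟨m, c⟩ hmc
    rw [MonoidHom.mem_ker] at hmc ⊢
    rw [hπa] at hmc
    rw [hψa]
    exact hcompat m c hmc
  let Φ : E →* E' := π.liftOfSurjective hπ ⟨ψ, hker⟩
  have hΦ : ∀ p, Φ (π p) = ψ p := fun p =>
    MonoidHom.liftOfRightInverse_comp_apply _ _ _ ⟨ψ, hker⟩ p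
  have hsurj : Function.Surjective Φ := by
    intro g'
    obtain ⟨m, c', hc', rfl⟩ := hgen' g'
    refine ⟨π (m, φ.symm ⟨c', hc'⟩), ?_⟩
    rw [hΦ, hψa]
    simp
  have hbij : Function.Bijective Φ := hsurj.bijective_of_nat_card_le hcard
  exact ⟨MulEquiv.ofBijective Φ hbij, fun m c => hΦ (m, c)⟩

universe u v

/-- Two groups with the elementwise data and the same order are isomorphic, by an isomorphism
matching the chosen central generators. -/
theorem iso_aux (p : ℕ) [Fact p.Prime] : ∀ n : ℕ, ∀ (E : Type u) [Group E] [Finite E]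
    (E' : Type v) [Group E'] [Finite E'] (z : E) (z' : E'), XP p E z → XP p E' z' →
    Nat.card E = n → Nat.card E' = n → ∃ φ : E ≃* E', φ z = z' := by
  intro n
  induction n using Nat.strong_induction_on with
  | _ n ih =>
  intro E _ _ E' _ _ z z' h h' hn hn'
  haveI : NeZero p := ⟨(Fact.out : p.Prime).ne_zero⟩
  have hp2 : 2 ≤ p := (Fact.out : p.Prime).two_le
  have hpp : p < p * p := by nlinarith
  have hbig : ∀ {A : Type u} [Group A] [Finite A] {w : A} (hA : XP p A w) (x y : A),
      comHom hA x y = zc w → p * p ≤ Nat.card A := by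
    intro A _ _ w hA x y hxy
    rw [card_eq hA x y hxy]
    exact Nat.le_mul_of_pos_right _ Nat.card_pos
  have hbig' : ∀ {A : Type v} [Group A] [Finite A] {w : A} (hA : XP p A w) (x y : A),
      comHom hA x y = zc w → p * p ≤ Nat.card A := by
    intro A _ _ w hA x y hxy
    rw [card_eq hA x y hxy]
    exact Nat.le_mul_of_pos_right _ Nat.card_pos
  by_cases hab : ∀ x a : E, x * a = a * x
  · by_cases hab' : ∀ x a : E', x * a = a * x
    · exact iso_abelian h h' hab hab' (hn.trans hn'.symm)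
    · exfalso
      push Not at hab'
      obtain ⟨x', a', hxa'⟩ := hab'
      obtain ⟨y', hxy'⟩ := exists_pair h' x' a' hxa'
      have h1 := hbig' h' x' y' hxy'
      have h2 := card_of_abelian h hab
      omega
  · push Not at hab
    obtain ⟨x, a, hxa⟩ := hab
    obtain ⟨y, hxy⟩ := exists_pair h x a hxa
    by_cases hab' : ∀ x a : E', x * a = a * x
    · exfalso
      have h1 := hbig h x y hxy
      have h2 := card_of_abelian h' hab'
      omega
    · push Not at hab'
      obtain ⟨x', a', hxa'⟩ := hab'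
      obtain ⟨y', hxy'⟩ := exists_pair h' x' a' hxa'
      have hc := card_eq h x y hxy
      have hc' := card_eq h' x' y' hxy'
      have hCC : Nat.card (cent2 x y) = Nat.card (cent2 x' y') := by
        have e : p * p * Nat.card (cent2 x y) = p * p * Nat.card (cent2 x' y') := by
          rw [← hc, ← hc', hn, hn']
        exact Nat.eq_of_mul_eq_mul_left (by positivity) e
      have hlt : Nat.card (cent2 x y) < n := by
        rw [← hn, hc]
        have hpos : 0 < Nat.card (cent2 x y) := Nat.card_pos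
        nlinarith
      obtain ⟨φ, hφ⟩ := ih _ hlt (cent2 x y) (cent2 x' y') ⟨z, xp_z_mem h x y⟩
        ⟨z', xp_z_mem h' x' y'⟩ (xp_sub h x y hxy) (xp_sub h' x' y' hxy') rfl hCC.symm
      have hx1 : x ≠ 1 := by
        rintro rfl; exact hxa (by simp)
      have hy1 : y ≠ 1 := by
        rintro rfl
        rw [map_one] at hxy
        exact zc_ne_one h hxy.symm
      have hx1' : x' ≠ 1 := by
        rintro rfl; exact hxa' (by simp)
      have hy1' : y' ≠ 1 := by
        rintro rfl
        rw [map_one] at hxy'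
        exact zc_ne_one h' hxy'.symm
      have hox := h.order_of_ne hx1
      have hoy := h.order_of_ne hy1
      have hox' := h'.order_of_ne hx1'
      have hoy' := h'.order_of_ne hy1'
      obtain ⟨Φ, hΦ⟩ := glue' (le_of_eq (hn.trans hn'.symm))
        (mdl h x y hox hoy (rel_of_pair h x y hxy))
        (mdl h' x' y' hox' hoy' (rel_of_pair h' x' y' hxy'))
        (cent2 x y) (cent2 x' y') φ
        (fun m c hc => mdl_comm h x y hox hoy _ m c hc)
        (fun m c hc => mdl_comm h' x' y' hox' hoy' _ m c hc)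
        (mdl_gen h x y hox hoy hxy) (mdl_gen h' x' y' hox' hoy' hxy')
        (by
          intro m c hmc
          have hinv : mdl h x y hox hoy (rel_of_pair h x y hxy) m = (c : E)⁻¹ :=
            eq_inv_of_mul_eq_one_left hmc
          have hmem : mdl h x y hox hoy (rel_of_pair h x y hxy) m ∈ cent2 x y := by
            rw [hinv]; exact (cent2 x y).inv_mem c.2
          obtain ⟨ha, hb⟩ := mdl_mem h x y hox hoy hxy m hmem
          have hc_eq : c = ((⟨z, xp_z_mem h x y⟩ : cent2 x y) ^ m.c.val)⁻¹ := by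
            apply Subtype.ext
            rw [Subgroup.coe_inv, Subgroup.coe_pow, ← mdl_central h x y hox hoy (rel_of_pair h x y hxy) m ha hb, hinv,
              inv_inv]
          rw [hc_eq, map_inv, map_pow, hφ, Subgroup.coe_inv, Subgroup.coe_pow,
            mdl_central h' x' y' hox' hoy' (rel_of_pair h' x' y' hxy') m ha hb]
          exact mul_inv_cancel _)
      refine ⟨Φ, ?_⟩
      have h1 := hΦ 1 ⟨z, xp_z_mem h x y⟩
      rw [map_one, one_mul, map_one, one_mul, hφ] at h1
      exact h1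

/-- Extraction of the elementwise data from an extraspecial group of exponent `p`. -/
theorem xp_of_extraspecial {p : ℕ} [Fact p.Prime] {E : Type*} [Group E] [Finite E]
    (hE : Cfsg.IsExtraspecial p E) (hexp : Monoid.exponent E = p) : ∃ z : E, XP p E z := by
  obtain ⟨⟨-, -, hcomm⟩, hcard⟩ := hE
  have hp2 : 2 ≤ p := (Fact.out : p.Prime).two_le
  haveI : Nontrivial (Subgroup.center E) := by
    rw [← Finite.one_lt_card_iff_nontrivial, hcard]; omega
  obtain ⟨z₀, hz₀⟩ := exists_ne (1 : Subgroup.center E)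
  have htop := zpowers_eq_top_of_prime_card hcard hz₀
  have hcen : ∀ c : E, c ∈ Subgroup.center E → c ∈ Subgroup.zpowers (z₀ : E) := by
    intro c hc
    have hm : (⟨c, hc⟩ : Subgroup.center E) ∈ Subgroup.zpowers z₀ := by
      rw [htop]; exact Subgroup.mem_top _
    obtain ⟨k, hk⟩ := Subgroup.mem_zpowers_iff.mp hm
    refine Subgroup.mem_zpowers_iff.mpr ⟨k, ?_⟩
    have := congrArg Subtype.val hk
    rw [Subgroup.coe_zpow] at this
    exact this
  refine ⟨(z₀ : E), ?_, ?_, ?_, ?_, ?_⟩
  · intro h1; exact hz₀ (Subtype.ext h1)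
  · intro g; rw [← hexp]; exact Monoid.pow_exponent_eq_one g
  · intro a; exact (Subgroup.mem_center_iff.mp z₀.2 a).symm
  · intro c hc
    exact hcen c (Subgroup.mem_center_iff.mpr hc)
  · intro a b
    apply hcen
    rw [← hcomm, ← commutatorElement_def, commutator_def]
    exact Subgroup.commutator_mem_commutator (Subgroup.mem_top a) (Subgroup.mem_top b)

/-- Extraspecial `p`-groups of exponent `p` and the same order are isomorphic. -/
theorem iso_of_card_eq {p : ℕ} [Fact p.Prime] {E : Type u} {E' : Type v} [Group E] [Group E']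
    [Finite E] [Finite E'] (hE : Cfsg.IsExtraspecial p E) (hE' : Cfsg.IsExtraspecial p E')
    (hexp : Monoid.exponent E = p) (hexp' : Monoid.exponent E' = p)
    (hcard : Nat.card E = Nat.card E') : Nonempty (E ≃* E') := by
  obtain ⟨z, hz⟩ := xp_of_extraspecial hE hexp
  obtain ⟨z', hz'⟩ := xp_of_extraspecial hE' hexp'
  obtain ⟨φ, -⟩ := iso_aux p (Nat.card E) E E' z z' hz hz' rfl hcard.symm
  exact ⟨φ⟩

end Cfsg.Agent.Lib.Helper30.XPIso
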