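import Mathlib
import Cfsg.Agent.Lib.Helper30.XSAut
import Cfsg.Prelude.Def_KGroupFacts
import Cfsg.Prelude.Def_Classical

set_option autoImplicit false
set_option linter.unusedSectionVars false

namespace Cfsg.Agent.Lib.Helper30.XSOut

open Cfsg.Agent.Lib.Helper93.LargeExtra2 Cfsg.Agent.Lib.Helper30.XSCount
  Cfsg.Agent.Lib.Helper30.XSIso Cfsg.Agent.Lib.Helper30.XSModel Cfsg.Agent.Lib.Helper30.XSExt
  Cfsg.Agent.Lib.Helper30.XSAut

open Matrix

universe u v

/-- Transport of the outer automorphism group along an isomorphism. -/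
theorem out_congr {G : Type u} {H : Type v} [Group G] [Group H] (e : G ≃* H) :
    Nonempty (Cfsg.Out G ≃* Cfsg.Out H) := by
  refine ⟨QuotientGroup.congr (Cfsg.Inn G) (Cfsg.Inn H) (MulAut.congr e) ?_⟩
  ext α
  constructor
  · rintro ⟨_, ⟨x, rfl⟩, rfl⟩
    exact ⟨e x, (conj_congr e x).symm⟩
  · rintro ⟨y, rfl⟩
    refine ⟨MulAut.conj (e.symm y), ⟨_, rfl⟩, ?_⟩
    show MulAut.congr e (MulAut.conj (e.symm y)) = _
    rw [conj_congr, MulEquiv.apply_symm_apply]

section Basis

variable {ι : Type} [Fintype ι] [DecidableEq ι]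

/-- The standard basis vectors. -/
def ee (i : ι) : ι → ZMod 2 := Pi.single i 1

/-- Expansion of an additive functional along the standard basis. -/
theorem add_expand (f : (ι → ZMod 2) → ZMod 2) (hf : ∀ u v, f (u + v) = f u + f v)
    (v : ι → ZMod 2) : f v = ∑ i, v i * f (ee i) := by
  let F : (ι → ZMod 2) →+ ZMod 2 := AddMonoidHom.mk' f hf
  have h1 : v = ∑ i, Pi.single i (v i) := (Finset.univ_sum_single v).symm
  have h2 : f v = F v := rfl
  rw [h2]
  conv_lhs => rw [h1]
  rw [map_sum]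
  apply Finset.sum_congr rfl
  intro i _
  rcases Mdl.zmod_two_cases (v i) with h | h
  · rw [h, Pi.single_zero, map_zero, zero_mul]
  · rw [h, one_mul]; rfl

/-- Expansion of a biadditive function along the standard basis. -/
theorem bi_expand (γ : (ι → ZMod 2) → (ι → ZMod 2) → ZMod 2)
    (hl : ∀ u v w, γ (u + v) w = γ u w + γ v w) (hr : ∀ u v w, γ u (v + w) = γ u v + γ u w)
    (u v : ι → ZMod 2) : γ u v = ∑ i, ∑ j, u i * v j * γ (ee i) (ee j) := by
  rw [add_expand (fun x => γ x v) (fun a b => hl a b v) u]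
  apply Finset.sum_congr rfl
  intro i _
  rw [add_expand (fun x => γ (ee i) x) (fun a b => hr (ee i) a b) v, Finset.mul_sum]
  apply Finset.sum_congr rfl
  intro j _
  ring

/-- A quadratic function with a prescribed alternating polarisation. -/
noncomputable def lam (γ : (ι → ZMod 2) → (ι → ZMod 2) → ZMod 2) (v : ι → ZMod 2) : ZMod 2 :=
  ∑ i, ∑ j, if Fintype.equivFin ι i < Fintype.equivFin ι j then v i * v j * γ (ee i) (ee j) else 0

theorem lam_coc (γ : (ι → ZMod 2) → (ι → ZMod 2) → ZMod 2)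
    (hl : ∀ u v w, γ (u + v) w = γ u w + γ v w) (hr : ∀ u v w, γ u (v + w) = γ u v + γ u w)
    (halt : ∀ v, γ v v = 0) (u v : ι → ZMod 2) :
    lam γ (u + v) + lam γ u + lam γ v = γ u v := by
  have hsymm : ∀ i j : ι, γ (ee i) (ee j) = γ (ee j) (ee i) := by
    intro i j
    have h := halt (ee i + ee j)
    rw [hl, hr, hr, halt, halt, zero_add, add_zero] at h
    have h2 := CharTwo.add_self_eq_zero (γ (ee j) (ee i))
    linear_combination h - h2
  rw [bi_expand γ hl hr u v]
  unfold lam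
  simp only [← Finset.sum_add_distrib]
  have h1 : ∀ i j : ι,
      ((if Fintype.equivFin ι i < Fintype.equivFin ι j then
          (u + v) i * (u + v) j * γ (ee i) (ee j) else 0) +
        (if Fintype.equivFin ι i < Fintype.equivFin ι j then u i * u j * γ (ee i) (ee j) else 0) +
        (if Fintype.equivFin ι i < Fintype.equivFin ι j then v i * v j * γ (ee i) (ee j) else 0)) =
      (if Fintype.equivFin ι i < Fintype.equivFin ι j then u i * v j * γ (ee i) (ee j) else 0) +
        (if Fintype.equivFin ι i < Fintype.equivFin ι j then u j * v i * γ (ee j) (ee i) else 0) := by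
    intro i j
    by_cases hlt : Fintype.equivFin ι i < Fintype.equivFin ι j
    · simp only [if_pos hlt, Pi.add_apply]
      rw [hsymm j i]
      have h2 := CharTwo.add_self_eq_zero (u i * u j * γ (ee i) (ee j))
      have h3 := CharTwo.add_self_eq_zero (v i * v j * γ (ee i) (ee j))
      linear_combination h2 + h3
    · simp only [if_neg hlt, add_zero]
  simp only [h1, Finset.sum_add_distrib]
  rw [Finset.sum_comm (f := fun i j =>
    if Fintype.equivFin ι i < Fintype.equivFin ι j then u j * v i * γ (ee j) (ee i) else 0)]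
  rw [← Finset.sum_add_distrib]
  apply Finset.sum_congr rfl
  intro i _
  rw [← Finset.sum_add_distrib]
  apply Finset.sum_congr rfl
  intro j _
  by_cases hij : i = j
  · subst hij
    simp only [lt_irrefl, if_false, add_zero, halt, mul_zero]
  · have hne : Fintype.equivFin ι i ≠ Fintype.equivFin ι j :=
      fun h => hij ((Fintype.equivFin ι).injective h)
    rcases lt_or_gt_of_ne hne with hlt | hgt
    · rw [if_pos hlt, if_neg (not_lt.mpr hlt.le), add_zero]
    · rw [if_neg (not_lt.mpr hgt.le), if_pos hgt, zero_add]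

/-- Every additive functional is represented by the commutator form. -/
theorem exists_repr (B : Coc (ι → ZMod 2)) (f : (ι → ZMod 2) → ZMod 2)
    (hf : ∀ u v, f (u + v) = f u + f v) : ∃ w, ∀ v, B.β w v + B.β v w = f v := by
  let T : (ι → ZMod 2) → (ι → ZMod 2) := fun w i => B.β w (ee i) + B.β (ee i) w
  have hpol : ∀ w v, B.β w v + B.β v w = ∑ i, v i * T w i := by
    intro w v
    exact add_expand (fun x => B.β w x + B.β x w)
      (fun a b => by simp only [B.add_left, B.add_right]; ring) v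
  have hTadd : ∀ w w', T (w + w') = T w + T w' := by
    intro w w'
    funext i
    simp only [T, Pi.add_apply, B.add_left, B.add_right]; ring
  have hinj : Function.Injective T := by
    intro w w' h
    by_contra hne
    have hne' : w + w' ≠ 0 := by
      intro h0
      apply hne
      have h1 := congrArg (fun t => t + w') h0
      simp only [add_assoc, B.two, add_zero, zero_add] at h1
      exact h1
    obtain ⟨x, hx⟩ := B.nondeg _ hne'
    rw [hpol, hTadd, h] at hx
    have h0 : T w' + T w' = 0 := by funext i; exact CharTwo.add_self_eq_zero (T w' i)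
    rw [h0] at hx
    simp at hx
  have hsurj : Function.Surjective T := Finite.injective_iff_surjective.mp hinj
  obtain ⟨w, hw⟩ := hsurj (fun i => f (ee i))
  refine ⟨w, fun v => ?_⟩
  rw [hpol, hw, add_expand f hf v]

/-- The automorphism of `Ext B` lifting an isometry of the squaring form. -/
noncomputable def liftAut (B : Coc (ι → ZMod 2)) (g g' : (ι → ZMod 2) → (ι → ZMod 2))
    (hadd : ∀ u v, g (u + v) = g u + g v) (hl : ∀ v, g' (g v) = v) (hr : ∀ v, g (g' v) = v)
    (hiso : ∀ v, B.β (g v) (g v) = B.β v v) : MulAut (Ext B) where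
  toFun x := ⟨x.c + lam (fun u v => B.β (g u) (g v) + B.β u v) x.v, g x.v⟩
  invFun x := ⟨x.c + lam (fun u v => B.β (g u) (g v) + B.β u v) (g' x.v), g' x.v⟩
  left_inv x := by
    apply Ext.ext
    · show x.c + lam (fun u v => B.β (g u) (g v) + B.β u v) x.v +
        lam (fun u v => B.β (g u) (g v) + B.β u v) (g' (g x.v)) = x.c
      rw [hl]
      have := CharTwo.add_self_eq_zero (lam (fun u v => B.β (g u) (g v) + B.β u v) x.v)
      linear_combination this
    · exact hl x.v
  right_inv x := by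
    apply Ext.ext
    · show x.c + lam (fun u v => B.β (g u) (g v) + B.β u v) (g' x.v) +
        lam (fun u v => B.β (g u) (g v) + B.β u v) (g' x.v) = x.c
      have := CharTwo.add_self_eq_zero (lam (fun u v => B.β (g u) (g v) + B.β u v) (g' x.v))
      linear_combination this
    · exact hr x.v
  map_mul' x y := by
    apply Ext.ext
    · show x.c + y.c + B.β x.v y.v + lam (fun u v => B.β (g u) (g v) + B.β u v) (x.v + y.v) =
        (x.c + lam (fun u v => B.β (g u) (g v) + B.β u v) x.v) +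
          (y.c + lam (fun u v => B.β (g u) (g v) + B.β u v) y.v) + B.β (g x.v) (g y.v)
      have h := lam_coc (fun u v => B.β (g u) (g v) + B.β u v)
        (fun a b c => by simp only [hadd, B.add_left]; ring)
        (fun a b c => by simp only [hadd, B.add_right]; ring)
        (fun a => by rw [hiso]; exact CharTwo.add_self_eq_zero (B.β a a)) x.v y.v
      have h2 := CharTwo.add_self_eq_zero
        (lam (fun u v => B.β (g u) (g v) + B.β u v) x.v +
          lam (fun u v => B.β (g u) (g v) + B.β u v) y.v)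
      have h3 := CharTwo.add_self_eq_zero (B.β x.v y.v)
      linear_combination h - h2 + h3
    · exact hadd x.v y.v

theorem abar_liftAut (B : Coc (ι → ZMod 2)) (g g' : (ι → ZMod 2) → (ι → ZMod 2))
    (hadd : ∀ u v, g (u + v) = g u + g v) (hl : ∀ v, g' (g v) = v) (hr : ∀ v, g (g' v) = v)
    (hiso : ∀ v, B.β (g v) (g v) = B.β v v) (v : ι → ZMod 2) :
    abar (liftAut B g g' hadd hl hr hiso) v = g v := rfl

/-- The matrix of the map induced on `V` by an automorphism. -/
def mat (B : Coc (ι → ZMod 2)) (α : MulAut (Ext B)) : Matrix ι ι (ZMod 2) :=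
  Matrix.of fun i j => abar α (ee j) i

theorem mat_apply (B : Coc (ι → ZMod 2)) (α : MulAut (Ext B)) (i j : ι) :
    mat B α i j = abar α (ee j) i := rfl

theorem mat_mulVec (B : Coc (ι → ZMod 2)) (α : MulAut (Ext B)) (v : ι → ZMod 2) :
    mat B α *ᵥ v = abar α v := by
  funext i
  rw [add_expand (fun x => abar α x i) (fun a b => by rw [abar_add]; rfl) v]
  simp only [Matrix.mulVec, dotProduct, mat_apply]
  apply Finset.sum_congr rfl
  intro j _
  ring

theorem mat_one (B : Coc (ι → ZMod 2)) : mat B 1 = 1 := by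
  ext i j
  rw [mat_apply, abar_one, ee, Matrix.one_apply, Pi.single_apply]

theorem mat_mul (B : Coc (ι → ZMod 2)) (α β : MulAut (Ext B)) :
    mat B (α * β) = mat B α * mat B β := by
  ext i j
  rw [Matrix.mul_apply, mat_apply, abar_mul, ← mat_mulVec B α]
  simp only [Matrix.mulVec, dotProduct]
  rfl

/-- The action on `V` as a homomorphism into the general linear group. -/
def toGL (B : Coc (ι → ZMod 2)) : MulAut (Ext B) →* Matrix.GeneralLinearGroup ι (ZMod 2) :=
  MonoidHom.toHomUnits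
    { toFun := mat B, map_one' := mat_one B, map_mul' := mat_mul B }

theorem toGL_coe (B : Coc (ι → ZMod 2)) (α : MulAut (Ext B)) :
    ((toGL B α : Matrix.GeneralLinearGroup ι (ZMod 2)) : Matrix ι ι (ZMod 2)) = mat B α := rfl

theorem toGL_ker (B : Coc (ι → ZMod 2)) : (toGL B).ker = Cfsg.Inn (Ext B) := by
  ext α
  rw [MonoidHom.mem_ker]
  constructor
  · intro h
    have hmat : mat B α = 1 := by
      have h1 := congrArg
        (fun x : Matrix.GeneralLinearGroup ι (ZMod 2) => (x : Matrix ι ι (ZMod 2))) h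
      exact h1
    have hid : ∀ v, abar α v = v := by
      intro v
      rw [← mat_mulVec, hmat, Matrix.one_mulVec]
    obtain ⟨w, hw⟩ := exists_repr B (lfun α) (lfun_add α hid)
    exact ⟨⟨0, w⟩, (eq_conj_of α hid w hw).symm⟩
  · rintro ⟨a, rfl⟩
    apply Units.ext
    rw [toGL_coe]
    ext i j
    show abar (MulAut.conj a) (ee j) i = (1 : Matrix ι ι (ZMod 2)) i j
    rw [abar_conj, ee, Matrix.one_apply, Pi.single_apply]

theorem toGL_range (B : Coc (ι → ZMod 2)) (Q : (ι → ZMod 2) → ZMod 2)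
    (hQ : ∀ v, B.β v v = Q v) : (toGL B).range = Cfsg.isometryGroup (ZMod 2) Q := by
  ext h
  constructor
  · rintro ⟨α, rfl⟩
    intro u _
    show Q ((toGL B α : Matrix ι ι (ZMod 2)) *ᵥ u) = Q u
    rw [toGL_coe, mat_mulVec, ← hQ, ← hQ]
    rcases Mdl.zmod_two_cases (B.β u u) with h0 | h1
    · rw [h0]; exact (abar_sing α u).mpr h0
    · rw [h1]
      rcases Mdl.zmod_two_cases (B.β (abar α u) (abar α u)) with h2 | h2
      · exact absurd ((abar_sing α u).mp h2) (by rw [h1]; exact one_ne_zero)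
      · exact h2
  · intro hh
    have hiso : ∀ u, Q ((h : Matrix ι ι (ZMod 2)) *ᵥ u) = Q u := fun u => hh u u
    refine ⟨liftAut B (fun v => (h : Matrix ι ι (ZMod 2)) *ᵥ v)
      (fun v => ((h⁻¹ : Matrix.GeneralLinearGroup ι (ZMod 2)) : Matrix ι ι (ZMod 2)) *ᵥ v)
      (fun u v => Matrix.mulVec_add _ u v) ?_ ?_ ?_, ?_⟩
    · intro v
      show ((h⁻¹ : Matrix.GeneralLinearGroup ι (ZMod 2)) : Matrix ι ι (ZMod 2)) *ᵥ
        ((h : Matrix ι ι (ZMod 2)) *ᵥ v) = v
      rw [Matrix.mulVec_mulVec, ← Units.val_mul, inv_mul_cancel, Units.val_one,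
        Matrix.one_mulVec]
    · intro v
      show (h : Matrix ι ι (ZMod 2)) *ᵥ
        (((h⁻¹ : Matrix.GeneralLinearGroup ι (ZMod 2)) : Matrix ι ι (ZMod 2)) *ᵥ v) = v
      rw [Matrix.mulVec_mulVec, ← Units.val_mul, mul_inv_cancel, Units.val_one,
        Matrix.one_mulVec]
    · intro v
      show B.β ((h : Matrix ι ι (ZMod 2)) *ᵥ v) ((h : Matrix ι ι (ZMod 2)) *ᵥ v) = B.β v v
      rw [hQ, hQ]
      exact hiso v
    · apply Units.ext
      rw [toGL_coe]
      ext i j
      rw [mat_apply, abar_liftAut]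
      show ((h : Matrix ι ι (ZMod 2)) *ᵥ Pi.single j 1) i = _
      rw [Matrix.mulVec_single_one]
      rfl

/-- The outer automorphism group of `Ext B` is the isometry group of the squaring form. -/
theorem out_equiv (B : Coc (ι → ZMod 2)) (Q : (ι → ZMod 2) → ZMod 2)
    (hQ : ∀ v, B.β v v = Q v) :
    Nonempty (Cfsg.Out (Ext B) ≃* Cfsg.isometryGroup (ZMod 2) Q) := by
  have e1 : MulAut (Ext B) ⧸ (toGL B).ker ≃* (toGL B).range :=
    QuotientGroup.quotientKerEquivRange (toGL B)
  have e2 : Cfsg.Out (Ext B) ≃* MulAut (Ext B) ⧸ (toGL B).ker :=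
    QuotientGroup.quotientMulEquivOfEq (toGL_ker B).symm
  have e3 : (toGL B).range ≃* Cfsg.isometryGroup (ZMod 2) Q :=
    MulEquiv.subgroupCongr (toGL_range B Q hQ)
  exact ⟨(e2.trans e1).trans e3⟩

end Basis

/-! ### The two standard models -/

/-- The cocycle whose squaring form is `quadFormPlus`. -/
def plusCoc (n : ℕ) : Coc (Fin n ⊕ Fin n → ZMod 2) where
  β u v := ∑ i : Fin n, u (Sum.inl i) * v (Sum.inr i)
  add_left u v w := by simp only [Pi.add_apply, add_mul, Finset.sum_add_distrib]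
  add_right u v w := by simp only [Pi.add_apply, mul_add, Finset.sum_add_distrib]
  two v := by funext k; exact CharTwo.add_self_eq_zero (v k)
  nondeg := by
    intro v hne
    obtain ⟨k, hk⟩ : ∃ k, v k ≠ 0 := by
      by_contra hall
      push Not at hall
      exact hne (funext hall)
    have hk1 : v k = 1 := (Mdl.zmod_two_cases (v k)).resolve_left hk
    rcases k with i | i
    · refine ⟨Pi.single (Sum.inr i) 1, ?_⟩
      simp [Pi.single_apply, hk1]
    · refine ⟨Pi.single (Sum.inl i) 1, ?_⟩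
      simp [Pi.single_apply, hk1]

theorem plusCoc_self (n : ℕ) (v : Fin n ⊕ Fin n → ZMod 2) :
    (plusCoc n).β v v = Cfsg.quadFormPlus n (ZMod 2) v := rfl

/-- Regrouping of coordinates. -/
def plusEquiv (n : ℕ) : (Fin n ⊕ Fin n → ZMod 2) ≃ (Fin n → ZMod 2 × ZMod 2) where
  toFun v i := (v (Sum.inr i), v (Sum.inl i))
  invFun w := Sum.elim (fun i => (w i).2) (fun i => (w i).1)
  left_inv v := by
    funext k
    rcases k with i | i <;> rfl
  right_inv w := rfl

theorem chi_sum_plus (n : ℕ) :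
    ∑ v : Fin n ⊕ Fin n → ZMod 2, Mdl.chi ((plusCoc n).β v v) = 2 ^ n := by
  rw [← chi_sum_hyp n]
  apply Fintype.sum_equiv (plusEquiv n)
  intro v
  rfl

/-- The cocycle whose squaring form is `quadFormMinus m 1 1`. -/
def minusCoc (m : ℕ) : Coc ((Fin m ⊕ Fin m) ⊕ Fin 2 → ZMod 2) where
  β u v := (∑ i : Fin m, u (Sum.inl (Sum.inl i)) * v (Sum.inl (Sum.inr i))) +
    (u (Sum.inr 0) * v (Sum.inr 0) + u (Sum.inr 0) * v (Sum.inr 1) + u (Sum.inr 1) * v (Sum.inr 1))
  add_left u v w := by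
    simp only [Pi.add_apply, add_mul, Finset.sum_add_distrib]; ring
  add_right u v w := by
    simp only [Pi.add_apply, mul_add, Finset.sum_add_distrib]; ring
  two v := by funext k; exact CharTwo.add_self_eq_zero (v k)
  nondeg := by
    intro v hne
    obtain ⟨k, hk⟩ : ∃ k, v k ≠ 0 := by
      by_contra hall
      push Not at hall
      exact hne (funext hall)
    have hk1 : v k = 1 := (Mdl.zmod_two_cases (v k)).resolve_left hk
    have h2 : ∀ t : ZMod 2, t + t = 0 := fun t => CharTwo.add_self_eq_zero t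
    rcases k with (i | i) | k
    · refine ⟨Pi.single (Sum.inl (Sum.inr i)) 1, ?_⟩
      simp [Pi.single_apply, hk1]
    · refine ⟨Pi.single (Sum.inl (Sum.inl i)) 1, ?_⟩
      simp [Pi.single_apply, hk1]
    · have hk01 : ∀ j : Fin 2, j = 0 ∨ j = 1 := by decide
      obtain rfl | rfl := hk01 k
      · refine ⟨Pi.single (Sum.inr 1) 1, ?_⟩
        simp [Pi.single_apply, hk1]
        have := h2 (v (Sum.inr 1))
        linear_combination this
      · refine ⟨Pi.single (Sum.inr 0) 1, ?_⟩
        simp [Pi.single_apply, hk1]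
        have := h2 (v (Sum.inr 0))
        linear_combination this

theorem minusCoc_self (m : ℕ) (v : (Fin m ⊕ Fin m) ⊕ Fin 2 → ZMod 2) :
    (minusCoc m).β v v = Cfsg.quadFormMinus m (ZMod 2) 1 1 v := by
  show (∑ i : Fin m, v (Sum.inl (Sum.inl i)) * v (Sum.inl (Sum.inr i))) +
    (v (Sum.inr 0) * v (Sum.inr 0) + v (Sum.inr 0) * v (Sum.inr 1) + v (Sum.inr 1) * v (Sum.inr 1)) =
    (∑ i : Fin m, v (Sum.inl (Sum.inl i)) * v (Sum.inl (Sum.inr i))) +
      (v (Sum.inr 0) ^ 2 + 1 * v (Sum.inr 0) * v (Sum.inr 1) + 1 * v (Sum.inr 1) ^ 2)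
  ring

/-- Regrouping of coordinates. -/
def minusEquiv (m : ℕ) : ((Fin m ⊕ Fin m) ⊕ Fin 2 → ZMod 2) ≃
    (Fin m → ZMod 2 × ZMod 2) × (ZMod 2 × ZMod 2) where
  toFun v := (fun i => (v (Sum.inl (Sum.inr i)), v (Sum.inl (Sum.inl i))), (v (Sum.inr 0), v (Sum.inr 1)))
  invFun p := Sum.elim (Sum.elim (fun i => (p.1 i).2) (fun i => (p.1 i).1))
    (fun k => if k = 0 then p.2.1 else p.2.2)
  left_inv v := by
    funext k
    rcases k with (i | i) | k
    · rfl
    · rfl
    · have hk01 : ∀ j : Fin 2, j = 0 ∨ j = 1 := by decide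
      obtain rfl | rfl := hk01 k
      · rfl
      · rfl
  right_inv p := rfl

theorem chi_sum_minus (m : ℕ) :
    ∑ v : (Fin m ⊕ Fin m) ⊕ Fin 2 → ZMod 2, Mdl.chi ((minusCoc m).β v v) = -2 ^ (m + 1) := by
  have h1 : ∑ v : (Fin m ⊕ Fin m) ⊕ Fin 2 → ZMod 2, Mdl.chi ((minusCoc m).β v v) =
      ∑ p : (Fin m → ZMod 2 × ZMod 2) × (ZMod 2 × ZMod 2),
        Mdl.chi ((Coc.hyp m).β p.1 p.1 + (p.2.1 * p.2.1 + p.2.1 * p.2.2 + p.2.2 * p.2.2)) := by
    apply Fintype.sum_equiv (minusEquiv m)
    intro v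
    rfl
  rw [h1, Fintype.sum_prod_type]
  simp only [Mdl.chi_add]
  rw [← Finset.sum_mul_sum, chi_sum_hyp]
  have h2 : ∑ p : ZMod 2 × ZMod 2, Mdl.chi (p.1 * p.1) * Mdl.chi (p.1 * p.2) * Mdl.chi (p.2 * p.2) = -2 := by
    decide
  rw [h2]
  ring

/-- Plus type: the outer automorphism group is the orthogonal group of plus type. -/
theorem out_plus {E : Type u} [Group E] [Finite E] (hE : Cfsg.IsExtraspecial 2 E) (n : ℕ)
    (hn : 1 ≤ n) (hcard : Nat.card E = 2 ^ (2 * n + 1)) (hS : Ssum E = 2 ^ (n + 1)) :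
    Nonempty (Cfsg.Out E ≃* Cfsg.isometryGroup (ZMod 2) (Cfsg.quadFormPlus n (ZMod 2))) := by
  obtain ⟨k, rfl⟩ : ∃ k, n = k + 1 := ⟨n - 1, by omega⟩
  have : Nontrivial (Fin (k + 1) ⊕ Fin (k + 1) → ZMod 2) :=
    ⟨⟨Pi.single (Sum.inl 0) 1, 0, fun h => by
      have h1 := congrFun h (Sum.inl 0)
      simp at h1⟩⟩
  have hM : Cfsg.IsExtraspecial 2 (Ext (plusCoc (k + 1))) := Ext.extraspecial
  have hMcard : Nat.card (Ext (plusCoc (k + 1))) = 2 ^ (2 * (k + 1) + 1) := by
    rw [Ext.card, Nat.card_eq_fintype_card, Fintype.card_fun, ZMod.card, Fintype.card_sum,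
      Fintype.card_fin]
    ring
  have hMS : Ssum (Ext (plusCoc (k + 1))) = 2 ^ (k + 1 + 1) := by
    rw [Ext.ssum_eq, chi_sum_plus]
    ring
  obtain ⟨e⟩ := iso_of_ssum_eq hE hM (hMcard.trans hcard.symm) (hS.trans hMS.symm)
  obtain ⟨e1⟩ := out_congr e
  obtain ⟨e2⟩ := out_equiv (plusCoc (k + 1)) (Cfsg.quadFormPlus (k + 1) (ZMod 2))
    (plusCoc_self (k + 1))
  exact ⟨e1.trans e2⟩

/-- Minus type: the outer automorphism group is the orthogonal group of minus type. -/
theorem out_minus {E : Type u} [Group E] [Finite E] (hE : Cfsg.IsExtraspecial 2 E) (m : ℕ)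
    (hcard : Nat.card E = 2 ^ (2 * (m + 1) + 1)) (hS : Ssum E = -2 ^ (m + 1 + 1)) :
    Nonempty (Cfsg.Out E ≃* Cfsg.isometryGroup (ZMod 2) (Cfsg.quadFormMinus m (ZMod 2) 1 1)) := by
  have : Nontrivial ((Fin m ⊕ Fin m) ⊕ Fin 2 → ZMod 2) :=
    ⟨⟨Pi.single (Sum.inr 0) 1, 0, fun h => by
      have h1 := congrFun h (Sum.inr 0)
      simp at h1⟩⟩
  have hM : Cfsg.IsExtraspecial 2 (Ext (minusCoc m)) := Ext.extraspecial
  have hMcard : Nat.card (Ext (minusCoc m)) = 2 ^ (2 * (m + 1) + 1) := by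
    rw [Ext.card, Nat.card_eq_fintype_card, Fintype.card_fun, ZMod.card, Fintype.card_sum,
      Fintype.card_sum, Fintype.card_fin, Fintype.card_fin]
    ring
  have hMS : Ssum (Ext (minusCoc m)) = -2 ^ (m + 1 + 1) := by
    rw [Ext.ssum_eq, chi_sum_minus]
    ring
  obtain ⟨e⟩ := iso_of_ssum_eq hE hM (hMcard.trans hcard.symm) (hS.trans hMS.symm)
  obtain ⟨e1⟩ := out_congr e
  obtain ⟨e2⟩ := out_equiv (minusCoc m) (Cfsg.quadFormMinus m (ZMod 2) 1 1) (minusCoc_self m)
  exact ⟨e1.trans e2⟩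

end Cfsg.Agent.Lib.Helper30.XSOut
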